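import Mathlib
import Cfsg.Agent.H923.Swap
import Cfsg.Agent.H923.Ext
set_option linter.all false

-- part: H923/Levi
section
/-!
Overgroups of `N_Ω(K)` which are not thin, `[K : F]` odd: there is an element stabilising `K u`,
trivial on `u^⊥ / K u` and not `K`-linear on `K u`.
-/

set_option autoImplicit false
set_option linter.unusedSectionVars false

namespace Cfsg.Agent.H923.KF

open QuadraticMap Module Cfsg.Agent.LieClassical.OrthCore Cfsg.Agent.LieClassical.OrthTrans
  Cfsg.Agent.LieClassical.OrthSimple Cfsg.Agent.ClassicalGeometry.OrthAutBasic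
open scoped commutatorElement

/-- A `p`-subgroup containing all `p`-elements of its normaliser is a Sylow subgroup. -/
theorem exists_sylow_eq {G : Type*} [Group G] [Finite G] {p : ℕ} [Fact p.Prime] {N : Subgroup G}
    (hN : IsPGroup p N)
    (h : ∀ x : G, (∀ n ∈ N, x * n * x⁻¹ ∈ N) → (∃ k, x ^ p ^ k = 1) → x ∈ N) :
    ∃ P : Sylow p G, (P : Subgroup G) = N := by
  obtain ⟨P, hP⟩ := hN.exists_le_sylow
  refine ⟨P, ?_⟩
  by_contra hne
  have hlt : N.subgroupOf (P : Subgroup G) < ⊤ := by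
    rw [lt_top_iff_ne_top]
    intro htop
    apply hne
    rw [Subgroup.subgroupOf_eq_top] at htop
    exact le_antisymm htop hP
  have hnil : Group.IsNilpotent (P : Subgroup G) := IsPGroup.isNilpotent P.isPGroup'
  have hlt' := Group.normalizerCondition_of_isNilpotent (G := (P : Subgroup G)) _ hlt
  obtain ⟨x, hx, hxN⟩ := SetLike.exists_of_lt hlt'
  apply hxN
  rw [Subgroup.mem_subgroupOf]
  apply h
  · intro n hn
    have h1 := (Subgroup.mem_normalizer_iff.1 hx ⟨n, hP hn⟩).1 (Subgroup.mem_subgroupOf.2 hn)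
    exact Subgroup.mem_subgroupOf.1 h1
  · obtain ⟨k, hk⟩ := P.isPGroup' x
    exact ⟨k, by
      have := congrArg Subtype.val hk
      exact this⟩

variable {F K V : Type*} [Field F] [Field K] [Algebra F K] [AddCommGroup V] [Module F V]
  [Module K V] [IsScalarTower F K V] {q : QuadraticForm K V} {Q : QuadraticForm F V}

/-- Elements of `H` trivial on `u^⊥`. -/
def NU (q : QuadraticForm K V) (H : Subgroup (V ≃ₗ[F] V)) (u : V) : Subgroup (V ≃ₗ[F] V) where
  carrier := {z | z ∈ H ∧ ∀ w, polar q u w = 0 → z w = w}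
  one_mem' := ⟨H.one_mem, fun _ _ => rfl⟩
  mul_mem' := by
    rintro a b ⟨ha, ha'⟩ ⟨hb, hb'⟩
    refine ⟨H.mul_mem ha hb, fun w hw => ?_⟩
    change a (b w) = w
    rw [hb' w hw, ha' w hw]
  inv_mem' := by
    rintro a ⟨ha, ha'⟩
    refine ⟨H.inv_mem ha, fun w hw => ?_⟩
    conv_lhs => rw [← ha' w hw]
    exact a.symm_apply_apply w

/-- Elements of `H` trivial on the complement of the hyperbolic plane. -/
def YU (q : QuadraticForm K V) (H : Subgroup (V ≃ₗ[F] V)) (u u' : V) : Subgroup (V ≃ₗ[F] V) where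
  carrier := {z | z ∈ H ∧ ∀ w, polar q u w = 0 → polar q u' w = 0 → z w = w}
  one_mem' := ⟨H.one_mem, fun _ _ _ => rfl⟩
  mul_mem' := by
    rintro a b ⟨ha, ha'⟩ ⟨hb, hb'⟩
    refine ⟨H.mul_mem ha hb, fun w hw hw' => ?_⟩
    change a (b w) = w
    rw [hb' w hw hw', ha' w hw hw']
  inv_mem' := by
    rintro a ⟨ha, ha'⟩
    refine ⟨H.inv_mem ha, fun w hw hw' => ?_⟩
    conv_lhs => rw [← ha' w hw hw']
    exact a.symm_apply_apply w

variable {H : Subgroup (V ≃ₗ[F] V)} [Finite K] [FiniteDimensional F V]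

theorem mem_NU {u : V} {z : V ≃ₗ[F] V} :
    z ∈ NU q H u ↔ z ∈ H ∧ ∀ w, polar q u w = 0 → z w = w := Iff.rfl

theorem mem_YU {u u' : V} {z : V ≃ₗ[F] V} :
    z ∈ YU q H u u' ↔ z ∈ H ∧ ∀ w, polar q u w = 0 → polar q u' w = 0 → z w = w := Iff.rfl

theorem NU_le_YU (u u' : V) : NU q H u ≤ YU q H u u' := fun _ hz => ⟨hz.1, fun w hw _ => hz.2 w hw⟩

theorem NU_le_YU' (u u' : V) : NU q H u' ≤ YU q H u u' :=
  fun _ hz => ⟨hz.1, fun w _ hw => hz.2 w hw⟩

/-- The fixed points of `NU` are `u^⊥`. -/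
theorem Over.fix_NU (h : Over q Q H) {p : ℕ} [Fact p.Prime] [CharP F p] (hp : p ≠ 2)
    {u u' : V} (hyp : Hyp q u u') (hne : ∃ z ∈ NU q H u, z ≠ 1) {v : V}
    (hv : ∀ z ∈ NU q H u, z v = v) : polar q u v = 0 := by
  have hcK : CharP K p := charP_of_injective_algebraMap (algebraMap F K).injective p
  have h2K : (2 : K) ≠ 0 := CharP.cast_ne_zero_of_ne_of_prime K Nat.prime_two hp
  obtain ⟨z, hz, hz1⟩ := hne
  by_contra hc₀
  set c₀ := polar q u v with hc₀d
  apply hz1
  -- fixed vectors on the line `K u'`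
  have h1 : ∀ z ∈ NU q H u, z (c₀ • u') = c₀ • u' := by
    intro z hz
    have h3 : polar q u (v - c₀ • u') = 0 := by
      rw [polar_sub_right, polar_smul_right, hyp.pair, smul_eq_mul, mul_one, sub_self]
    have h4 := hz.2 _ h3
    rw [map_sub, hv z hz, sub_right_inj] at h4
    exact h4
  have h3 : ∀ a : K, a ≠ 0 → z ((a ^ 2)⁻¹ • c₀ • u') = (a ^ 2)⁻¹ • c₀ • u' := by
    intro a ha
    obtain ⟨t, htH, htu, htu', htw⟩ := h.exists_torus hyp ha
    have htt : ∀ x, t⁻¹ (t x) = x := fun x => t.symm_apply_apply x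
    have ha2 : a ^ 2 ≠ 0 := pow_ne_zero 2 ha
    have h4 : (res F t)⁻¹ * z * res F t ∈ NU q H u := by
      refine ⟨H.mul_mem (H.mul_mem (H.inv_mem htH) hz.1) htH, fun w hw => ?_⟩
      change (res F t)⁻¹ (z (t w)) = w
      have htO : res F t ∈ O Q := h.leO htH
      have h5 : polar q u (t w) = 0 := by
        apply h.tr.polar_eq_zero
        intro c
        have e1 : c • u = t ((c * (a ^ 2)⁻¹) • u) := by
          rw [map_smul, htu, smul_smul, mul_assoc, inv_mul_cancel₀ ha2, mul_one]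
        rw [e1]
        change polar Q (res F t _) (res F t w) = 0
        rw [polar_map htO, h.tr.polar_smul, hw, mul_zero, map_zero]
      rw [hz.2 _ h5]
      exact htt w
    have h5 := h1 _ h4
    change (res F t)⁻¹ (z (t (c₀ • u'))) = c₀ • u' at h5
    have h6 : z (t (c₀ • u')) = t (c₀ • u') := by
      have h7 := congrArg (res F t) h5
      have h8 : res F t ((res F t)⁻¹ (z (t (c₀ • u')))) = z (t (c₀ • u')) :=
        (res F t).apply_symm_apply _
      rw [h8] at h7
      exact h7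
    rw [map_smul, htu', smul_comm] at h6
    exact h6
  have h4 : ∀ a : K, z (a ^ 2 • c₀ • u') = a ^ 2 • c₀ • u' := by
    intro a
    by_cases ha : a = 0
    · subst ha
      rw [zero_pow two_ne_zero, zero_smul, map_zero]
    · have := h3 a⁻¹ (inv_ne_zero ha)
      rwa [inv_pow, inv_inv] at this
  have h5 : ∀ c : K, z (c • u') = c • u' := by
    intro c
    obtain ⟨a, b, hab⟩ := sq_sub_sq h2K (c * c₀⁻¹)
    have e : c • u' = a ^ 2 • c₀ • u' - b ^ 2 • c₀ • u' := by
      rw [← sub_smul, ← hab, smul_smul, mul_assoc, inv_mul_cancel₀ hc₀, mul_one]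
    rw [e, map_sub, h4, h4]
  ext x
  have e : x = (x - polar q u x • u') + polar q u x • u' := by abel
  have h6 : polar q u (x - polar q u x • u') = 0 := by
    rw [polar_sub_right, polar_smul_right, hyp.pair, smul_eq_mul, mul_one, sub_self]
  conv_lhs => rw [e, map_add, hz.2 _ h6, h5]
  rw [← e]
  rfl

/-- If `g` conjugates `NU u` into `NU u₁` then `g` maps `K u` onto `K u₁`. -/
theorem Over.map_line (h : Over q Q H) {p : ℕ} [Fact p.Prime] [CharP F p] (hp : p ≠ 2)
    {u u' u₁ : V} (hyp : Hyp q u u') (hne : ∃ z ∈ NU q H u, z ≠ 1)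
    {g : V ≃ₗ[F] V} (hg : g ∈ O Q) (hconj : ∀ z ∈ NU q H u, g * z * g⁻¹ ∈ NU q H u₁) (c : K) :
    ∃ d : K, g (c • u) = d • u₁ := by
  -- `g⁻¹` maps `u₁^⊥` into `u^⊥`
  have h1 : ∀ x, polar q u₁ x = 0 → polar q u (g⁻¹ x) = 0 := by
    intro x hx
    apply h.fix_NU hp hyp hne
    intro z hz
    have h3 := (hconj z hz).2 x hx
    change g (z (g⁻¹ x)) = x at h3
    apply g.injective
    rw [h3]
    exact (g.apply_symm_apply x).symm
  obtain ⟨d, hd⟩ := mem_line_of_perp_perp h.nondeg (u := u₁) (y := g (c • u)) (by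
    intro x hx
    rw [polar_comm]
    apply h.tr.polar_eq_zero
    intro e
    -- `polar Q (e • g (c u)) x`
    have h3 : polar q u₁ (e • x) = 0 := by rw [polar_smul_right, hx, smul_zero]
    have h4 := h1 _ h3
    have h5 : polar Q (g (c • u)) (e • x) = 0 := by
      have e1 : g (g⁻¹ (e • x)) = e • x := g.apply_symm_apply _
      rw [← e1, polar_map hg, h.tr.polar_smul, h4, mul_zero, map_zero]
    rw [h.tr.polar, polar_smul_left, ← h5, h.tr.polar, polar_smul_right])
  exact ⟨d, hd⟩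

/-- All elements of `H` stabilising `K u` and trivial on `u^⊥ / K u` act as scalars on `K u`. -/
def Scal (q : QuadraticForm K V) (H : Subgroup (V ≃ₗ[F] V)) (u : V) : Prop :=
  ∀ g ∈ H, (∀ c : K, ∃ d : K, g (c • u) = d • u) →
    (∀ w, polar q u w = 0 → ∃ d : K, g w = w + d • u) → ∃ κ : K, ∀ c : K, g (c • u) = (κ * c) • u

theorem Scal.move {u u' : V} (hs : Scal q H u) {m : V ≃ₗ[K] V} (hm : m ∈ O q)
    (hmH : res F m ∈ H) {e : K} (he : e ≠ 0) (hmu : m u' = e • u) : Scal q H u' := by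
  intro g hg h1 h2
  have hmm : ∀ x, m (m⁻¹ x) = x := fun x => m.apply_symm_apply x
  have hmm' : ∀ x, m⁻¹ (m x) = x := fun x => m.symm_apply_apply x
  have hu : u = e⁻¹ • m u' := by rw [hmu, smul_smul, inv_mul_cancel₀ he, one_smul]
  have hmi : ∀ x : V, (res F m)⁻¹ x = m⁻¹ x := fun x => rfl
  have hcu : ∀ c : K, m⁻¹ (c • u) = (c * e⁻¹) • u' := by
    intro c
    rw [hu, smul_smul, map_smul, hmm']
  have hact : ∀ x : V, (res F m * g * (res F m)⁻¹) x = m (g (m⁻¹ x)) := fun x => rfl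
  obtain ⟨κ, hκ⟩ := hs (res F m * g * (res F m)⁻¹) (H.mul_mem (H.mul_mem hmH hg) (H.inv_mem hmH))
    (by
      intro c
      obtain ⟨d, hd⟩ := h1 (c * e⁻¹)
      rw [hact, hcu, hd, map_smul, hmu]
      exact ⟨d * e, by rw [smul_smul]⟩)
    (by
      intro w hw
      have hw' : polar q u' (m⁻¹ w) = 0 := by
        rw [← polar_map hm, hmm, hmu, polar_smul_left, hw, smul_zero]
      obtain ⟨d, hd⟩ := h2 _ hw'
      rw [hact, hd, map_add, hmm, map_smul, hmu]
      exact ⟨d * e, by rw [smul_smul]⟩)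
  refine ⟨κ, fun c => ?_⟩
  have h3 := hκ (c * e)
  rw [hact, hcu, mul_assoc, mul_inv_cancel₀ he, mul_one] at h3
  apply m.injective
  rw [h3, map_smul, hmu, smul_smul, mul_assoc]

theorem NU_move {u u' : V} (hne : ∃ z ∈ NU q H u, z ≠ 1) {m : V ≃ₗ[K] V} (hm : m ∈ O q)
    (hmH : res F m ∈ H) {e : K} (he : e ≠ 0) (hmu : m u' = e • u) : ∃ z ∈ NU q H u', z ≠ 1 := by
  obtain ⟨z, hz, hz1⟩ := hne
  refine ⟨(res F m)⁻¹ * z * res F m, ⟨H.mul_mem (H.mul_mem (H.inv_mem hmH) hz.1) hmH, ?_⟩, ?_⟩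
  · intro w hw
    change (res F m)⁻¹ (z (m w)) = w
    have hu : u = e⁻¹ • m u' := by rw [hmu, smul_smul, inv_mul_cancel₀ he, one_smul]
    rw [hz.2 (m w) (by rw [hu, polar_smul_left, polar_map hm, hw, smul_zero])]
    exact m.symm_apply_apply w
  · intro h1
    apply hz1
    have : z = res F m * ((res F m)⁻¹ * z * res F m) * (res F m)⁻¹ := by group
    rw [this, h1]
    group

/-- Under `Scal`, the group `NU` is a Sylow subgroup of `YU`. -/
theorem Over.sylow_NU (h : Over q Q H) {p : ℕ} [Fact p.Prime] [CharP F p] (hp : p ≠ 2)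
    {u u' : V} (hyp : Hyp q u u') (hne : ∃ z ∈ NU q H u, z ≠ 1) (hs : Scal q H u)
    (Y : Subgroup (V ≃ₗ[F] V))
    (hY : ∀ g ∈ Y, g ∈ H ∧ ∀ w, polar q u w = 0 → polar q u' w = 0 → g w = w)
    (hNY : NU q H u ≤ Y) :
    ∃ P : Sylow p Y, (P : Subgroup Y) = (NU q H u).subgroupOf Y := by
  have hfF : Finite F := finiteF F K
  have hfV : Finite V := Module.finite_of_finite F
  have hfE : Finite (V ≃ₗ[F] V) := Finite.of_injective (fun g => (g : V → V)) (by
    intro a b hab
    ext v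
    exact congrFun hab v)
  have hcK : CharP K p := charP_of_injective_algebraMap (algebraMap F K).injective p
  have hu0 : u ≠ 0 := hyp.left_ne
  have hR : ∀ z ∈ NU q H u, Rad q u z := by
    intro z hz
    refine ⟨fun c => hz.2 _ (by rw [polar_smul_right, hyp.polar_left, smul_zero]),
      fun w hw => ⟨0, ?_⟩⟩
    rw [hz.2 w hw, zero_smul, add_zero]
  apply exists_sylow_eq
  · rintro ⟨z, hz⟩
    refine ⟨1, ?_⟩
    rw [Subgroup.mem_subgroupOf] at hz
    have h1 : (z : V ≃ₗ[F] V) ^ p = 1 :=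
      pow_eq_one_of_cube hp ((hR _ hz).cube h.tr (h.leO hz.1))
    apply Subtype.ext
    apply Subtype.ext
    rw [pow_one]
    exact h1
  · rintro ⟨x, hxY⟩ hnorm ⟨k, hk⟩
    rw [Subgroup.mem_subgroupOf]
    obtain ⟨hxH, hxW⟩ := hY x hxY
    have hline : ∀ c : K, ∃ d : K, x (c • u) = d • u := by
      intro c
      refine h.map_line hp hyp hne (h.leO hxH) ?_ c
      intro z hz
      have h1 := hnorm ⟨z, hNY hz⟩ (Subgroup.mem_subgroupOf.2 hz)
      exact Subgroup.mem_subgroupOf.1 h1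
    have hdec : ∀ w, polar q u w = 0 → ∃ (a : K) (w₀ : V), w = a • u + w₀ ∧ polar q u w₀ = 0 ∧
        polar q u' w₀ = 0 := by
      intro w hw
      refine ⟨polar q u' w, w - polar q u' w • u, by abel, ?_, ?_⟩
      · rw [polar_sub_right, polar_smul_right, hyp.polar_left, hw, smul_zero, sub_zero]
      · rw [polar_sub_right, polar_smul_right, hyp.pair', smul_eq_mul, mul_one, sub_self]
    obtain ⟨κ, hκ⟩ := hs x hxH hline (by
      intro w hw
      obtain ⟨a, w₀, rfl, h1, h3⟩ := hdec w hw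
      obtain ⟨d, hd⟩ := hline a
      refine ⟨d - a, ?_⟩
      rw [map_add, hd, hxW w₀ h1 h3, sub_smul]
      abel)
    have hpow : ∀ n : ℕ, ∀ c : K, (x ^ n) (c • u) = (κ ^ n * c) • u := by
      intro n
      induction n with
      | zero => intro c; rw [pow_zero, pow_zero, one_mul]; rfl
      | succ n ih =>
        intro c
        rw [pow_succ]
        change (x ^ n) (x (c • u)) = _
        rw [hκ, ih, pow_succ, mul_assoc]
    have hx1 : x ^ p ^ k = 1 := by
      have := congrArg Subtype.val hk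
      exact this
    have hκ1 : κ = 1 := by
      have h1 := hpow (p ^ k) 1
      rw [hx1, mul_one] at h1
      have h3 : (1 : K) • u = κ ^ p ^ k • u := h1
      rw [← sub_eq_zero, ← sub_smul] at h3
      have h4 := (smul_eq_zero.1 h3).resolve_right hu0
      have h5 : (1 - κ) ^ p ^ k = 0 := by
        rw [sub_pow_char_pow, one_pow, h4]
      have h6 := pow_eq_zero_iff (pow_ne_zero k (Fact.out : p.Prime).ne_zero) |>.1 h5
      exact (sub_eq_zero.1 h6).symm
    refine ⟨hxH, fun w hw => ?_⟩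
    obtain ⟨a, w₀, rfl, h1, h3⟩ := hdec w hw
    change x (a • u + w₀) = _
    rw [map_add, hκ, hκ1, one_mul, hxW w₀ h1 h3]

/-- **The Levi element.** -/
theorem Over.exists_levi (h : Over q Q H) {p : ℕ} [Fact p.Prime] [CharP F p] (hp : p ≠ 2)
    (hr : Odd (finrank F K)) (hK : 3 ≤ finrank K V)
    {u u' : V} (hyp : Hyp q u u') (hne : ∃ z ∈ NU q H u, z ≠ 1) : ¬ Scal q H u := by
  intro hs
  have hfF : Finite F := finiteF F K
  have hfV : Finite V := Module.finite_of_finite F
  have hfK : FiniteDimensional F K := Module.Finite.of_finite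
  have hfKV : FiniteDimensional K V := Module.Finite.of_finite
  have hfE : Finite (V ≃ₗ[F] V) := Finite.of_injective (fun g => (g : V → V)) (by
    intro a b hab
    ext v
    exact congrFun hab v)
  have hcK : CharP K p := charP_of_injective_algebraMap (algebraMap F K).injective p
  have h2F : (2 : F) ≠ 0 := CharP.cast_ne_zero_of_ne_of_prime F Nat.prime_two hp
  obtain ⟨z, w, e, he, hmove⟩ := exists_T_move h.nondeg hK hyp.left hyp.right hyp.left_ne
    hyp.right_ne
  have hs' : Scal q H u' := hs.move (T_mem_O z w) (h.T_mem hp z w) he hmove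
  have hne' := NU_move hne (T_mem_O z w) (h.T_mem hp z w) he hmove
  obtain ⟨P, hP⟩ := h.sylow_NU hp hyp hne hs (YU q H u u') (fun g hg => hg) (NU_le_YU u u')
  obtain ⟨P', hP'⟩ := h.sylow_NU hp hyp.symm hne' hs' (YU q H u u')
    (fun g hg => ⟨hg.1, fun w hw hw' => hg.2 w hw' hw⟩) (NU_le_YU' u u')
  obtain ⟨g, hg⟩ := MulAction.exists_smul_eq (↥(YU q H u u')) P P'
  have hconj : ∀ z ∈ NU q H u, (g : V ≃ₗ[F] V) * z * (g : V ≃ₗ[F] V)⁻¹ ∈ NU q H u' := by
    intro z hz
    have h1 : (⟨z, NU_le_YU u u' hz⟩ : ↥(YU q H u u')) ∈ (P : Subgroup ↥(YU q H u u')) := by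
      rw [hP]
      exact Subgroup.mem_subgroupOf.2 hz
    have h3 : MulAut.conj g • (⟨z, NU_le_YU u u' hz⟩ : ↥(YU q H u u')) ∈
        (P' : Subgroup ↥(YU q H u u')) := by
      rw [← hg]
      exact Subgroup.smul_mem_pointwise_smul _ _ _ h1
    rw [hP'] at h3
    exact Subgroup.mem_subgroupOf.1 h3
  have hline := h.map_line hp hyp hne (h.leO g.2.1) hconj
  -- the reflection
  have hq : q (u - u') = -1 := by
    rw [sub_eq_add_neg, Q_add, QuadraticMap.map_neg, hyp.left, hyp.right, polar_neg_right, hyp.pair]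
    simp
  have hq0 : q (u - u') ≠ 0 := by rw [hq]; exact neg_ne_zero.2 one_ne_zero
  set s := refl q (u - u') hq0 with hsd
  have hsu' : s u' = u := by
    rw [hsd, refl_apply, hq, polar_sub_left, hyp.pair, hyp.polar_right]
    match_scalars <;> ring
  have hsw : ∀ w, polar q u w = 0 → polar q u' w = 0 → s w = w := by
    intro w hw hw'
    rw [hsd, refl_apply, polar_sub_left, hw, hw', sub_zero, mul_zero, zero_smul, sub_zero]
  have hsO : res F s ∈ O Q := h.tr.res_mem (refl_mem_O hq0)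
  have hdet := det_eq_one_of_line h.tr h.good hp hyp
    (h := res F s * (g : V ≃ₗ[F] V)) ((O Q).mul_mem hsO (h.leO g.2.1)) (by
      intro c
      obtain ⟨d, hd⟩ := hline c
      refine ⟨d, ?_⟩
      change s ((g : V ≃ₗ[F] V) (c • u)) = _
      rw [hd, map_smul, hsu']) (by
      intro w hw hw'
      change s ((g : V ≃ₗ[F] V) w) = _
      rw [g.2.2 w hw hw', hsw w hw hw'])
  have e1 : ((res F s * (g : V ≃ₗ[F] V) : V ≃ₗ[F] V) : V →ₗ[F] V) =
      ((s : V →ₗ[K] V).restrictScalars F) ∘ₗ ((g : V ≃ₗ[F] V) : V →ₗ[F] V) := rfl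
  have hs1 : LinearMap.det (s : V →ₗ[K] V) = -1 := by
    have e2 : (s : V →ₗ[K] V) =
        LinearMap.transvection (-((q (u - u'))⁻¹ • polarBilin q (u - u'))) (u - u') := by
      apply LinearMap.ext
      intro x
      rw [LinearMap.transvection.apply, LinearEquiv.coe_coe, hsd, refl_apply, LinearMap.neg_apply,
        LinearMap.smul_apply, polarBilin_apply_apply, smul_eq_mul, neg_smul, sub_eq_add_neg]
    rw [e2, LinearMap.transvection.det, LinearMap.neg_apply, LinearMap.smul_apply,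
      polarBilin_apply_apply, polar_self', hq, smul_eq_mul]
    norm_num
  rw [e1, LinearMap.det_comp, det_of_mem_E h.good (h.le g.2.1), mul_one,
    LinearMap.det_restrictScalars, hs1] at hdet
  have e3 : (-1 : K) = algebraMap F K (-1) := by rw [map_neg, map_one]
  rw [e3, Algebra.norm_algebraMap, hr.neg_one_pow] at hdet
  apply h2F
  linear_combination -hdet

end Cfsg.Agent.H923.KF
end

-- part: H923/NotThin
section
/-!
Overgroups of `N_Ω(K)` which are not thin contain `Ω(Q)`, `[K : F]` an odd prime.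
-/

set_option autoImplicit false
set_option linter.unusedSectionVars false

namespace Cfsg.Agent.H923.KF

open QuadraticMap Module Cfsg.Agent.LieClassical.OrthCore Cfsg.Agent.LieClassical.OrthTrans
  Cfsg.Agent.LieClassical.OrthSimple Cfsg.Agent.ClassicalGeometry.OrthAutBasic
  Cfsg.Agent.H887.SiegelMethod
open scoped commutatorElement

variable {F K V : Type*} [Field F] [Field K] [Algebra F K] [AddCommGroup V] [Module F V]
  [Module K V] [IsScalarTower F K V] {q : QuadraticForm K V} {Q : QuadraticForm F V}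

theorem Rad.mul {u : V} {g h : V ≃ₗ[F] V} (hg : Rad q u g) (hh : Rad q u h) :
    Rad q u (g * h) := by
  constructor
  · intro c
    change g (h (c • u)) = _
    rw [hh.1, hg.1]
  · intro w hw
    obtain ⟨c, hc⟩ := hh.2 w hw
    obtain ⟨d, hd⟩ := hg.2 w hw
    refine ⟨d + c, ?_⟩
    change g (h w) = _
    rw [hc, map_add, hg.1, hd, add_smul, add_assoc]

theorem Rad.inv {u : V} {g : V ≃ₗ[F] V} (hg : Rad q u g) : Rad q u g⁻¹ := by
  constructor
  · intro c
    conv_lhs => rw [← hg.1 c]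
    exact g.symm_apply_apply _
  · intro w hw
    obtain ⟨c, hc⟩ := hg.2 w hw
    refine ⟨-c, ?_⟩
    apply g.injective
    have e : g (g⁻¹ w) = w := g.apply_symm_apply w
    rw [e, map_add, hg.1, hc, neg_smul, add_neg_cancel_right]

theorem Rad.one (u : V) : Rad q u (1 : V ≃ₗ[F] V) :=
  ⟨fun _ => rfl, fun w _ => ⟨0, by rw [zero_smul, add_zero]; rfl⟩⟩

/-- The ring of endomorphisms of `K` acting on the unipotent radical of `H`. -/
def RR (F : Type*) {K V : Type*} [Field F] [Field K] [Algebra F K] [AddCommGroup V] [Module F V]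
    [Module K V] [IsScalarTower F K V]
    (q : QuadraticForm K V) (H : Subgroup (V ≃ₗ[F] V)) (u : V) : Subring (Module.End F K) where
  carrier := {ρ | ∀ g ∈ H, Rad q u g → ∃ g' ∈ H, Rad q u g' ∧
    ∀ w, polar q u w = 0 → ∀ c : K, g w = w + c • u → g' w = w + ρ c • u}
  zero_mem' := fun g _ _ => ⟨1, H.one_mem, Rad.one u, fun w _ c _ => by
    rw [LinearMap.zero_apply, zero_smul, add_zero]; rfl⟩
  one_mem' := fun g hg hR => ⟨g, hg, hR, fun w _ c hc => hc⟩
  add_mem' := by
    intro ρ σ hρ hσ g hg hR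
    obtain ⟨g₁, h1, hR1, he1⟩ := hρ g hg hR
    obtain ⟨g₂, h2, hR2, he2⟩ := hσ g hg hR
    refine ⟨g₁ * g₂, H.mul_mem h1 h2, hR1.mul hR2, fun w hw c hc => ?_⟩
    change g₁ (g₂ w) = _
    rw [he2 w hw c hc, map_add, he1 w hw c hc, hR1.1, LinearMap.add_apply, add_smul, add_assoc]
  neg_mem' := by
    intro ρ hρ g hg hR
    obtain ⟨g₁, h1, hR1, he1⟩ := hρ g hg hR
    refine ⟨g₁⁻¹, H.inv_mem h1, hR1.inv, fun w hw c hc => ?_⟩
    apply g₁.injective
    have e : g₁ (g₁⁻¹ w) = w := g₁.apply_symm_apply w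
    rw [e, map_add, hR1.1, he1 w hw c hc, LinearMap.neg_apply, neg_smul, add_neg_cancel_right]
  mul_mem' := by
    intro ρ σ hρ hσ g hg hR
    obtain ⟨g₁, h1, hR1, he1⟩ := hσ g hg hR
    obtain ⟨g₂, h2, hR2, he2⟩ := hρ g₁ h1 hR1
    exact ⟨g₂, h2, hR2, fun w hw c hc => he2 w hw _ (he1 w hw c hc)⟩

variable {H : Subgroup (V ≃ₗ[F] V)} [Finite K] [FiniteDimensional F V]

theorem mem_RR {u : V} {ρ : Module.End F K} : ρ ∈ RR F q H u ↔ ∀ g ∈ H, Rad q u g →
    ∃ g' ∈ H, Rad q u g' ∧
    ∀ w, polar q u w = 0 → ∀ c : K, g w = w + c • u → g' w = w + ρ c • u := Iff.rfl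

/-- Levi elements act on the unipotent radical. -/
theorem Over.levi_mem_RR (h : Over q Q H) {u : V} (hu0 : u ≠ 0) {m : V ≃ₗ[F] V} (hm : m ∈ H)
    (hline : ∀ c : K, ∃ d : K, m (c • u) = d • u)
    (htriv : ∀ w, polar q u w = 0 → ∃ d : K, m w = w + d • u) {ρ : Module.End F K}
    (hρ : ∀ c : K, m (c • u) = ρ c • u) : ρ ∈ RR F q H u := by
  intro g hg hR
  have hsurj := line_surj hu0 hline
  have hmm : ∀ x, m (m⁻¹ x) = x := fun x => m.apply_symm_apply x
  have hmm' : ∀ x, m⁻¹ (m x) = x := fun x => m.symm_apply_apply x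
  have hinv : ∀ c : K, ∃ d : K, m⁻¹ (c • u) = d • u := by
    intro c
    obtain ⟨d, hd⟩ := hsurj c
    exact ⟨d, by rw [← hd, hmm']⟩
  have hperp : ∀ w, polar q u w = 0 → polar q u (m⁻¹ w) = 0 := fun w hw =>
    perp_of_line h.tr ((O Q).inv_mem (h.leO hm)) (line_surj hu0 hinv) hw
  have hinv' : ∀ w, polar q u w = 0 → ∃ d : K, m⁻¹ w = w + d • u := by
    intro w hw
    obtain ⟨d, hd⟩ := htriv _ (hperp w hw)
    rw [hmm] at hd
    refine ⟨-d, ?_⟩
    rw [neg_smul]
    conv_rhs => rw [hd]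
    rw [add_neg_cancel_right]
  have key : ∀ w, polar q u w = 0 → ∀ c : K, g w = w + c • u →
      (m * g * m⁻¹) w = w + ρ c • u := by
    intro w hw c hc
    obtain ⟨d, hd⟩ := hinv' w hw
    change m (g (m⁻¹ w)) = _
    have e1 : g (m⁻¹ w) = m⁻¹ w + c • u := by
      rw [hd, map_add, hR.1, hc]
      abel
    rw [e1, map_add, hmm, hρ]
  refine ⟨m * g * m⁻¹, H.mul_mem (H.mul_mem hm hg) (H.inv_mem hm), ⟨?_, ?_⟩, key⟩
  · intro c
    obtain ⟨d, hd⟩ := hinv c
    change m (g (m⁻¹ (c • u))) = _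
    rw [hd, hR.1, ← hd, hmm]
  · intro w hw
    obtain ⟨c, hc⟩ := hR.2 w hw
    exact ⟨_, key w hw c hc⟩

theorem Over.mulLeft_mem_RR (h : Over q Q H) {p : ℕ} [Fact p.Prime] [CharP F p] (hp : p ≠ 2)
    {u u' : V} (hyp : Hyp q u u') (κ : K) : LinearMap.mulLeft F κ ∈ RR F q H u := by
  have hcK : CharP K p := charP_of_injective_algebraMap (algebraMap F K).injective p
  have h2K : (2 : K) ≠ 0 := CharP.cast_ne_zero_of_ne_of_prime K Nat.prime_two hp
  have hsq : ∀ a : K, LinearMap.mulLeft F (a ^ 2) ∈ RR F q H u := by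
    intro a
    by_cases ha : a = 0
    · subst ha
      have : LinearMap.mulLeft F ((0 : K) ^ 2) = 0 := by
        ext x
        rw [LinearMap.mulLeft_apply, zero_pow two_ne_zero, zero_mul, LinearMap.zero_apply]
      rw [this]
      exact (RR F q H u).zero_mem
    obtain ⟨t, htH, htu, htu', htw⟩ := h.exists_torus hyp ha
    have hline : ∀ c : K, (res F t) (c • u) = (c * a ^ 2) • u := by
      intro c
      rw [res_apply, map_smul, htu, smul_smul]
    refine h.levi_mem_RR hyp.left_ne htH (fun c => ⟨_, hline c⟩) ?_ ?_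
    · intro w hw
      have e : w = polar q u' w • u + (w - polar q u' w • u) := by abel
      have h1 : polar q u (w - polar q u' w • u) = 0 := by
        rw [polar_sub_right, polar_smul_right, hyp.polar_left, hw, smul_zero, sub_zero]
      have h3 : polar q u' (w - polar q u' w • u) = 0 := by
        rw [polar_sub_right, polar_smul_right, hyp.pair', smul_eq_mul, mul_one, sub_self]
      refine ⟨polar q u' w * a ^ 2 - polar q u' w, ?_⟩
      conv_lhs => rw [e]
      rw [map_add, hline, res_apply, htw _ h1 h3, sub_smul]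
      abel
    · intro c
      rw [hline, LinearMap.mulLeft_apply, mul_comm]
  obtain ⟨a, b, rfl⟩ := sq_sub_sq h2K κ
  have : LinearMap.mulLeft F (a ^ 2 - b ^ 2) = LinearMap.mulLeft F (a ^ 2) -
      LinearMap.mulLeft F (b ^ 2) := by
    ext x
    simp [sub_mul]
  rw [this]
  exact (RR F q H u).sub_mem (hsq a) (hsq b)

theorem Over.RR_eq_top (h : Over q Q H) {p : ℕ} [Fact p.Prime] [CharP F p] (hp : p ≠ 2)
    (hr : (finrank F K).Prime) {u u' : V} (hyp : Hyp q u u') (hs : ¬ Scal q H u) :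
    RR F q H u = ⊤ := by
  have hfF : Finite F := finiteF F K
  have hfK : FiniteDimensional F K := Module.Finite.of_finite
  unfold Scal at hs
  push Not at hs
  obtain ⟨m, hm, hline, htriv, hne⟩ := hs
  let ρ : K →ₗ[F] K :=
    { toFun := fun c => polar q u' (m (c • u))
      map_add' := fun a b => by rw [add_smul, map_add, polar_add_right]
      map_smul' := fun r a => by
        rw [RingHom.id_apply, smul_assoc, map_smul, ← algebraMap_smul K r (m (a • u)),
          polar_smul_right, smul_eq_mul, Algebra.smul_def] }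
  have hρ : ∀ c : K, m (c • u) = ρ c • u := by
    intro c
    obtain ⟨d, hd⟩ := hline c
    have : ρ c = d := by
      change polar q u' (m (c • u)) = d
      rw [hd, polar_smul_right, hyp.pair', smul_eq_mul, mul_one]
    rw [this, hd]
  refine subring_eq_top hr _ (h.mulLeft_mem_RR hp hyp)
    ⟨ρ, h.levi_mem_RR hyp.left_ne hm hline htriv hρ, ?_⟩
  by_contra hcon
  push Not at hcon
  obtain ⟨c, hc⟩ := hne (ρ 1)
  apply hc
  rw [hρ]
  congr 1
  have := hcon c 1
  rw [mul_one] at this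
  rw [this, mul_comm]

/-- `F`-Siegel maps modulo elements trivial on `u^⊥`. -/
theorem Over.exists_siegel (h : Over q Q H) {p : ℕ} [Fact p.Prime] [CharP F p] (hp : p ≠ 2)
    {u : V} (hu : q u = 0) (htop : RR F q H u = ⊤) {x : V} (hx : polar q u x = 0) (a : K) :
    ∃ g ∈ H, Rad q u g ∧ ∀ w, polar q u w = 0 → g w = w - polar Q x w • a • u := by
  have h1 : ((Algebra.trace F K).smulRight a : Module.End F K) ∈ RR F q H u := by
    rw [htop]
    trivial
  obtain ⟨g, hg, hR, he⟩ := h1 _ (h.T_mem hp u x) (rad_T hu hx)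
  refine ⟨g, hg, hR, fun w hw => ?_⟩
  have h3 := he w hw (-polar q x w) (by
    rw [res_apply, T_apply_perp hu hx hw, neg_smul, sub_eq_add_neg])
  rw [h3, LinearMap.smulRight_apply, map_neg, ← h.tr.polar, neg_smul, neg_smul, smul_assoc,
    sub_eq_add_neg]

/-- **The long root elements of a `K`-line.** -/
theorem Over.root_mem (h : Over q Q H) {p : ℕ} [Fact p.Prime] [CharP F p] (hp : p ≠ 2)
    (hK : 3 ≤ finrank K V) {u u' : V} (hyp : Hyp q u u') (htop : RR F q H u = ⊤) (c d : K) :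
    T Q (c • u) (d • u) ∈ H := by
  have hT := h.tr
  have hu := hyp.left
  obtain ⟨x₁, x₂, h1, -, h2, -, h12⟩ := exists_perp2 h.nondeg hK hyp
  obtain ⟨e, he⟩ : ∃ e : K, Algebra.trace F K e ≠ 0 := by
    by_contra hcon
    push Not at hcon
    have : (1 : K) = 0 := trace_eq_zero (F := F) fun c => hcon _
    exact one_ne_zero this
  have hx : polar q u (e • x₁) = 0 := by rw [polar_smul_right, h1, smul_zero]
  set β := polar Q (e • x₁) x₂ with hβ
  have hβ0 : β ≠ 0 := by
    rw [hβ, hT.polar_smul, h12, mul_one]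
    exact he
  obtain ⟨g₁, hg₁, hR₁, he₁⟩ := h.exists_siegel hp hu htop hx c
  obtain ⟨g₂, hg₂, hR₂, he₂⟩ := h.exists_siegel hp hu htop h2 (β⁻¹ • d)
  have hO₁ := h.leO hg₁
  have hO₂ := h.leO hg₂
  have hQu : ∀ a : K, Q (a • u) = 0 := hT.sing_smul hu
  have hcu : polar Q (c • u) (d • u) = 0 := by
    rw [hT.polar_smul, polar_smul_right, hyp.polar_left, smul_zero, mul_zero, map_zero]
  have key : ∀ (g : V ≃ₗ[F] V), g ∈ O Q → Rad q u g → ∀ (x y : V) (a : K), polar q u x = 0 →
      polar q u y = 0 → (∀ w, polar q u w = 0 → g w = w - polar Q x w • a • u) → ∀ v,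
      polar Q y (g v - v) = polar Q x y * polar Q (a • u) v := by
    intro g hg hR x y a hx hy he v
    have e1 : g (y + polar Q x y • a • u) = y := by
      have e3 : polar Q x y • a • u = (polar Q x y • a) • u := (smul_assoc _ _ _).symm
      rw [map_add, he y hy, e3, hR.1]
      abel
    have e4 : polar Q y (g v) = polar Q (y + polar Q x y • a • u) v := by
      conv_lhs => rw [← e1]
      exact polar_map hg _ _
    rw [polar_sub_right, e4, polar_add_left, polar_smul_left, smul_eq_mul]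
    ring
  have hcomm : g₁ * g₂ = T Q (c • u) (d • u) * (g₂ * g₁) := by
    ext v
    change g₁ (g₂ v) = T Q (c • u) (d • u) (g₂ (g₁ v))
    have p1 := hR₁.sub_perp hT hO₁ v
    have p2 := hR₂.sub_perp hT hO₂ v
    have q1 : g₁ (g₂ v) = g₁ v + (g₂ v - v) - polar Q (e • x₁) (g₂ v - v) • c • u := by
      have : g₂ v = v + (g₂ v - v) := by abel
      conv_lhs => rw [this, map_add, he₁ _ p2]
      abel
    have q2 : g₂ (g₁ v) = g₂ v + (g₁ v - v) - polar Q x₂ (g₁ v - v) • (β⁻¹ • d) • u := by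
      have : g₁ v = v + (g₁ v - v) := by abel
      conv_lhs => rw [this, map_add, he₂ _ p1]
      abel
    have k1 := key g₂ hO₂ hR₂ x₂ (e • x₁) _ h2 hx he₂ v
    have k2 := key g₁ hO₁ hR₁ (e • x₁) x₂ _ hx h2 he₁ v
    have f1 : ∀ a : K, polar Q (a • u) (g₂ (g₁ v)) = polar Q (a • u) v := by
      intro a
      conv_lhs => rw [← hR₂.1 a]
      rw [polar_map hO₂]
      conv_lhs => rw [← hR₁.1 a]
      rw [polar_map hO₁]
    rw [T_apply_root (hQu c) (hQu d) hcu, f1, f1, q1, q2, k1, k2, polar_comm Q x₂, ← hβ]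
    have e2 : polar Q ((β⁻¹ • d) • u) v = β⁻¹ * polar Q (d • u) v := by
      rw [smul_assoc, polar_smul_left, smul_eq_mul]
    have e5 : β * (β⁻¹ * polar Q (d • u) v) = polar Q (d • u) v := by
      rw [← mul_assoc, mul_inv_cancel₀ hβ0, one_mul]
    have e6 : (β * polar Q (c • u) v) • β⁻¹ • d • u = polar Q (c • u) v • d • u := by
      rw [smul_smul]
      congr 1
      field_simp
    rw [e2, smul_assoc β⁻¹ d u, e5, e6]
    abel
  have : T Q (c • u) (d • u) = g₁ * g₂ * (g₂ * g₁)⁻¹ := by rw [hcomm]; group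
  rw [this]
  exact H.mul_mem (H.mul_mem hg₁ hg₂) (H.inv_mem (H.mul_mem hg₂ hg₁))

/-- From the long root elements of two opposite `K`-lines to a full Siegel group. -/
theorem Over.full_of_root (h : Over q Q H) {p : ℕ} [Fact p.Prime] [CharP F p] (hp : p ≠ 2)
    (hr : 3 ≤ finrank F K) {u u' : V} (hyp : Hyp q u u')
    (hJ : ∀ c d : K, T Q (c • u) (d • u) ∈ H) (hJ' : ∀ c d : K, T Q (c • u') (d • u') ∈ H) :
    ∀ x, polar Q u x = 0 → x ∈ Ts Q H u := by
  have hfF : Finite F := finiteF F K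
  have hfK : FiniteDimensional F K := Module.Finite.of_finite
  have hT := h.tr
  have hu := hyp.left
  have hu' := hyp.right
  have hQu : ∀ a : K, Q (a • u) = 0 := hT.sing_smul hu
  have hQu' : ∀ a : K, Q (a • u') = 0 := hT.sing_smul hu'
  have hpair : ∀ a b : K, polar Q (a • u') (b • u) = Algebra.trace F K (a * b) := by
    intro a b
    rw [hT.polar_smul, polar_smul_right, hyp.pair', smul_eq_mul, mul_one]
  have hpair' : ∀ a b : K, polar Q (a • u') (b • u') = 0 := by
    intro a b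
    rw [hT.polar_smul, polar_smul_right, hyp.polar_right, smul_zero, mul_zero, map_zero]
  have step1 : ∀ d : K, d • u ∈ Ts Q H u := by
    intro d
    refine ⟨?_, fun c => ?_⟩
    · rw [hT.polar, polar_smul_right, hyp.polar_left, smul_zero, map_zero]
    · have := hJ 1 (c • d)
      rwa [one_smul, smul_assoc] at this
  have hker : ∀ c₂ : K, ∃ c₁ : K, Algebra.trace F K c₁ = 0 ∧ ∀ l : F, c₁ ≠ l • c₂ := by
    intro c₂
    by_contra hcon
    push Not at hcon
    have h1 : LinearMap.ker (Algebra.trace F K) ≤ Submodule.span F {c₂} := by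
      intro x hx
      obtain ⟨l, hl⟩ := hcon x (LinearMap.mem_ker.1 hx)
      exact Submodule.mem_span_singleton.2 ⟨l, hl.symm⟩
    have h2 := Submodule.finrank_mono h1
    have h3 := finrank_span_le_card (R := F) ({c₂} : Set K)
    rw [Set.toFinset_singleton, Finset.card_singleton] at h3
    have h4 := LinearMap.finrank_range_add_finrank_ker (Algebra.trace F K)
    have h5 := Submodule.finrank_le (LinearMap.range (Algebra.trace F K))
    rw [Module.finrank_self] at h5
    omega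
  have step2 : ∀ c₂ : K, Algebra.trace F K c₂ = 0 → c₂ • u' ∈ Ts Q H u := by
    intro c₂ hc₂
    by_cases hc0 : c₂ = 0
    · rw [hc0, zero_smul]
      exact (Ts Q H u).zero_mem
    obtain ⟨c₁, hc₁, hind⟩ := hker c₂
    obtain ⟨c, hc2, hc1⟩ : ∃ c : K, Algebra.trace F K (c₂ * c) = 0 ∧
        Algebra.trace F K (c₁ * c) ≠ 0 := by
      by_contra hcon
      push Not at hcon
      obtain ⟨c₀, hc₀⟩ : ∃ c₀ : K, Algebra.trace F K (c₂ * c₀) = 1 := by
        obtain ⟨b, hb⟩ : ∃ b : K, Algebra.trace F K (c₂ * b) ≠ 0 := by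
          by_contra hcon
          push Not at hcon
          exact hc0 (trace_eq_zero (F := F) fun c => by rw [mul_comm]; exact hcon c)
        refine ⟨(Algebra.trace F K (c₂ * b))⁻¹ • b, ?_⟩
        rw [mul_smul_comm, map_smul, smul_eq_mul, inv_mul_cancel₀ hb]
      apply hind (Algebra.trace F K (c₁ * c₀))
      rw [← sub_eq_zero]
      apply trace_eq_zero (F := F)
      intro c
      have h1 := hcon (c - Algebra.trace F K (c₂ * c) • c₀) (by
        rw [mul_sub, mul_smul_comm, map_sub, map_smul, hc₀, smul_eq_mul, mul_one, sub_self])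
      rw [mul_sub, mul_smul_comm, map_sub, map_smul, smul_eq_mul] at h1
      rw [mul_sub, mul_smul_comm, map_sub, map_smul, smul_eq_mul, mul_comm c c₁, mul_comm c c₂,
        mul_comm (Algebra.trace F K (c₁ * c₀))]
      exact h1
    have hfix : T Q (c₁ • u') (c₂ • u') u = u := by
      rw [T_apply_root (hQu' c₁) (hQu' c₂) (hpair' _ _)]
      have e1 : polar Q (c₁ • u') u = 0 := by
        have := hpair c₁ 1
        rwa [one_smul, mul_one, hc₁] at this
      have e2 : polar Q (c₂ • u') u = 0 := by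
        have := hpair c₂ 1
        rwa [one_smul, mul_one, hc₂] at this
      rw [e1, e2, zero_smul, zero_smul, add_zero, sub_zero]
    have h1 := root_mem_Ts h.leO (hQu' c₁) (hQu' c₂) (hpair' _ _) (hJ' c₁ c₂) hfix (step1 c)
    rw [hpair, hpair, hc2, zero_smul, sub_zero] at h1
    have h3 := (Ts Q H u).smul_mem (Algebra.trace F K (c₁ * c))⁻¹ h1
    rwa [smul_smul, inv_mul_cancel₀ hc1, one_smul] at h3
  have step3 : ∀ y, polar q u y = 0 → y ∈ Ts Q H u := by
    intro y hy
    obtain ⟨c, hc, hc0⟩ := hker 0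
    have hc0' : c ≠ 0 := by
      have := hc0 1
      rwa [smul_zero] at this
    have hy' : polar q u (c⁻¹ • y) = 0 := by rw [polar_smul_right, hy, smul_zero]
    have hm := h.T_mem hp u (c⁻¹ • y)
    have h1 := fix_mem_Ts hm (h.leO hm) (u := u) (x := c • u') (T_apply_self hu hy') (step2 c hc)
    rw [res_apply, T_apply hu hy', polar_smul_right, hyp.pair, smul_eq_mul, mul_one, smul_smul,
      mul_inv_cancel₀ hc0', one_smul] at h1
    have h3 := (Ts Q H u).add_mem ((Ts Q H u).sub_mem h1 (step2 c hc))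
      ((Ts Q H u).add_mem (step1 (polar q (c⁻¹ • y) (c • u'))) (step1 (q (c⁻¹ • y) * c)))
    have e : c • u' + y - polar q (c⁻¹ • y) (c • u') • u - (q (c⁻¹ • y) * c) • u - c • u' +
        (polar q (c⁻¹ • y) (c • u') • u + (q (c⁻¹ • y) * c) • u) = y := by abel
    rwa [e] at h3
  intro x hx
  have e : x = (x - polar q u x • u') + polar q u x • u' := by abel
  rw [e]
  refine (Ts Q H u).add_mem (step3 _ ?_) (step2 _ ?_)
  · rw [polar_sub_right, polar_smul_right, hyp.pair, smul_eq_mul, mul_one, sub_self]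
  · rw [← hT.polar]
    exact hx

/-- **Overgroups which are not thin.** -/
theorem Over.E_le_of_not_thin (h : Over q Q H) {p : ℕ} [Fact p.Prime] [CharP F p] (hp : p ≠ 2)
    (hr : (finrank F K).Prime) (hr2 : finrank F K ≠ 2) (hK : 3 ≤ finrank K V)
    {u : V} (hu : q u = 0) (hu0 : u ≠ 0) (hnt : ¬ Thin q H u) : E Q ≤ H := by
  obtain ⟨u', hyp⟩ := exists_hyp h.nondeg hu hu0
  have hr3 : 3 ≤ finrank F K := by
    have := hr.two_le
    omega
  have hne : ∃ z ∈ NU q H u, z ≠ 1 := by
    by_contra hcon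
    push Not at hcon
    exact hnt (h.thin_of_trivial hp hyp fun z hz hz' => hcon z ⟨hz, hz'⟩)
  have hs := h.exists_levi hp (hr.odd_of_ne_two hr2) hK hyp hne
  have hJ := h.root_mem hp hK hyp (h.RR_eq_top hp hr hyp hs)
  -- the opposite line
  obtain ⟨z, w, e, he, hmove⟩ := exists_T_move h.nondeg hK hyp.left hyp.right hyp.left_ne
    hyp.right_ne
  have hm := h.T_mem hp z w
  have hJ' : ∀ c d : K, T Q (c • u') (d • u') ∈ H := by
    intro c d
    have h1 := hJ (c * e) (d * e)
    have e1 : ∀ c : K, (c * e) • u = res F (T q z w) (c • u') := by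
      intro c
      rw [res_apply, map_smul, hmove, smul_smul]
    rw [e1, e1, ← T_conj (h.leO hm)] at h1
    have h3 := H.mul_mem (H.mul_mem (H.inv_mem hm) h1) hm
    have e2 : (res F (T q z w))⁻¹ * (res F (T q z w) * T Q (c • u') (d • u') *
        (res F (T q z w))⁻¹) * res F (T q z w) = T Q (c • u') (d • u') := by group
    rwa [e2] at h3
  obtain ⟨b, hb⟩ : ∃ b : K, Algebra.trace F K b ≠ 0 := by
    by_contra hcon
    push Not at hcon
    have : (1 : K) = 0 := trace_eq_zero (F := F) fun c => hcon _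
    exact one_ne_zero this
  have hb0 : b ≠ 0 := by
    rintro rfl
    exact hb (map_zero _)
  have hyp2 : Hyp q (b • u') (b⁻¹ • u) := by
    refine ⟨?_, ?_, ?_⟩
    · rw [QuadraticMap.map_smul, hyp.right, smul_zero]
    · rw [QuadraticMap.map_smul, hyp.left, smul_zero]
    · rw [polar_smul_left, polar_smul_right, hyp.pair', smul_eq_mul, smul_eq_mul, mul_one,
        mul_inv_cancel₀ hb0]
  refine E_le_of_Ts (H := H) h.good (e := u) (f := b • u') ?_ ?_ ?_
    (h.full_of_root hp hr3 hyp hJ hJ') (h.full_of_root hp hr3 hyp2 ?_ ?_)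
  · have := h.tr.sing_smul hyp.left (1 : K)
    rwa [one_smul] at this
  · exact h.tr.sing_smul hyp.right b
  · rw [h.tr.polar, polar_smul_right, hyp.pair, smul_eq_mul, mul_one]
    exact hb
  · intro c d
    rw [smul_smul, smul_smul]
    exact hJ' _ _
  · intro c d
    rw [smul_smul, smul_smul]
    exact hJ _ _

/-- **Overgroups of `N_Ω(K)`, `K` of odd prime degree.** -/
theorem Over.main (h : Over q Q H) {p : ℕ} [Fact p.Prime] [CharP F p] (hp : p ≠ 2)
    (hr : (finrank F K).Prime) (hr2 : finrank F K ≠ 2) (hK : 3 ≤ finrank K V)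
    (hex : ¬ (p = 3 ∧ finrank F K = 3 ∧ finrank K V = 3))
    {u : V} (hu : q u = 0) (hu0 : u ≠ 0) (hH : ¬ H ≤ NK F K V) : E Q ≤ H := by
  by_cases hthin : Thin q H u
  · exact absurd (h.le_NK hp hr hK hex hu hu0 hthin (Or.inl fun hc => hr2 hc.2)) hH
  · exact h.E_le_of_not_thin hp hr hr2 hK hu hu0 hthin

end Cfsg.Agent.H923.KF
end
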