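import Mathlib
import Cfsg.Agent.H887.SiegelMethod
set_option linter.all false

-- part: H923/KForm
section
/-!
A quadratic form `q` over a finite extension `K / F` of finite fields of odd characteristic and its
trace form `Q v = Tr (q v)`: dictionary between the orthogonal groups of `q` and `Q`.
-/

set_option autoImplicit false
set_option linter.unusedSectionVars false

namespace Cfsg.Agent.H923.KF

open QuadraticMap Module Cfsg.Agent.LieClassical.OrthCore Cfsg.Agent.LieClassical.OrthTrans
  Cfsg.Agent.LieClassical.OrthSimple Cfsg.Agent.ClassicalGeometry.OrthAutBasic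

/-! ### Linear algebra of the trace -/

section Trace

variable {F K : Type*} [Field F] [Field K] [Algebra F K] [Finite K]

theorem finiteF (F K : Type*) [Field F] [Field K] [Algebra F K] [Finite K] : Finite F :=
  Finite.of_injective _ (algebraMap F K).injective

theorem trace_eq_zero {x : K} (h : ∀ c : K, Algebra.trace F K (c * x) = 0) : x = 0 := by
  have : Finite F := finiteF F K
  have : FiniteDimensional F K := inferInstance
  by_contra hx
  apply Algebra.trace_ne_zero F K
  ext z
  have := h (z * x⁻¹)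
  rwa [mul_assoc, inv_mul_cancel₀ hx, mul_one] at this

/-- Functionals are traces. -/
theorem exists_trace_rep (μ : K →ₗ[F] F) : ∃ κ : K, ∀ c, μ c = Algebra.trace F K (κ * c) := by
  have : Finite F := finiteF F K
  have : FiniteDimensional F K := inferInstance
  let Φ : K →ₗ[F] Module.Dual F K := (Algebra.traceForm F K)
  have hinj : Function.Injective Φ := by
    rw [injective_iff_map_eq_zero]
    intro x hx
    apply trace_eq_zero (F := F)
    intro c
    have := LinearMap.congr_fun hx c
    rw [mul_comm]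
    exact this
  have hsurj : Function.Surjective Φ :=
    (LinearMap.injective_iff_surjective_of_finrank_eq_finrank
      (Subspace.dual_finrank_eq (K := F) (V := K)).symm).1 hinj
  obtain ⟨κ, hκ⟩ := hsurj μ
  exact ⟨κ, fun c => by rw [← hκ]; rfl⟩

theorem trace_algEquiv (τ : K ≃ₐ[F] K) (x : K) : Algebra.trace F K (τ x) = Algebra.trace F K x :=
  Algebra.trace_eq_of_algEquiv τ x

/-- Squares generate the field additively. -/
theorem sq_sub_sq (h2 : (2 : K) ≠ 0) (x : K) : ∃ a b : K, x = a ^ 2 - b ^ 2 :=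
  ⟨(x + 1) / 2, (x - 1) / 2, by field_simp; ring⟩

theorem trace_sq_eq_zero (h2 : (2 : K) ≠ 0) {x : K}
    (h : ∀ c : K, Algebra.trace F K (c ^ 2 * x) = 0) : x = 0 := by
  apply trace_eq_zero (F := F)
  intro c
  obtain ⟨a, b, rfl⟩ := sq_sub_sq h2 c
  rw [sub_mul, map_sub, h, h, sub_zero]

/-- A semilinear map determines its automorphism. -/
theorem exists_algEquiv {A B : Type*} [AddCommGroup A] [AddCommGroup B] [Module F A] [Module F B]
    [Module K A] [Module K B] [IsScalarTower F K A] [IsScalarTower F K B] (g : A →ₗ[F] B) {a₀ : A}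
    (h0 : g a₀ ≠ 0) (h : ∀ c : K, ∃ c' : K, ∀ a, g (c • a) = c' • g a) :
    ∃ τ : K ≃ₐ[F] K, ∀ (c : K) (a : A), g (c • a) = τ c • g a := by
  choose t ht using h
  have huniq : ∀ {c c' : K}, c • g a₀ = c' • g a₀ → c = c' := by
    intro c c' hc
    rw [← sub_eq_zero, ← sub_smul] at hc
    exact sub_eq_zero.1 ((smul_eq_zero.1 hc).resolve_right h0)
  let τ : K →ₐ[F] K :=
    { toFun := t
      map_one' := huniq (by rw [← ht, one_smul, one_smul])
      map_mul' := fun c d => huniq (by rw [← ht, mul_smul, ht, ht, ← mul_smul])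
      map_zero' := huniq (by rw [← ht, zero_smul, map_zero, zero_smul])
      map_add' := fun c d => huniq (by rw [← ht, add_smul, map_add, ht, ht, ← add_smul])
      commutes' := fun r => huniq (by rw [← ht, algebraMap_smul, map_smul, algebraMap_smul]) }
  have hbij : Function.Bijective τ :=
    Finite.injective_iff_bijective.1 (RingHom.injective (τ : K →+* K))
  exact ⟨AlgEquiv.ofBijective τ hbij, fun c a => ht c a⟩

end Trace

variable {F K V : Type*} [Field F] [Field K] [Algebra F K] [AddCommGroup V] [Module F V]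
  [Module K V] [IsScalarTower F K V]

/-! ### The normaliser of `K` -/

/-- The normaliser of `K` in the group of `F`-linear automorphisms: the `K`-semilinear maps. -/
def NK (F K V : Type*) [Field F] [Field K] [Algebra F K] [AddCommGroup V] [Module F V]
    [Module K V] [IsScalarTower F K V] : Subgroup (V ≃ₗ[F] V) where
  carrier := {g | ∃ τ : K ≃ₐ[F] K, ∀ (c : K) (v : V), g (c • v) = τ c • g v}
  one_mem' := ⟨AlgEquiv.refl, fun _ _ => rfl⟩
  mul_mem' := by
    rintro a b ⟨τ, hτ⟩ ⟨τ', hτ'⟩
    refine ⟨τ'.trans τ, fun c v => ?_⟩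
    change a (b (c • v)) = τ (τ' c) • a (b v)
    rw [hτ', hτ]
  inv_mem' := by
    rintro a ⟨τ, hτ⟩
    refine ⟨τ.symm, fun c v => ?_⟩
    apply a.injective
    change a (a.symm (c • v)) = a (τ.symm c • a.symm v)
    rw [hτ, AlgEquiv.apply_symm_apply, LinearEquiv.apply_symm_apply, LinearEquiv.apply_symm_apply]

theorem mem_NK {g : V ≃ₗ[F] V} :
    g ∈ NK F K V ↔ ∃ τ : K ≃ₐ[F] K, ∀ (c : K) (v : V), g (c • v) = τ c • g v := Iff.rfl

theorem mem_NK_of_linear {g : V ≃ₗ[F] V} (h : ∀ (c : K) (v : V), g (c • v) = c • g v) :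
    g ∈ NK F K V := ⟨AlgEquiv.refl, h⟩

theorem mem_NK_of_forall [Finite K] {g : V ≃ₗ[F] V}
    (h : ∀ c : K, ∃ c' : K, ∀ v, g (c • v) = c' • g v) : g ∈ NK F K V := by
  by_cases hV : ∃ v : V, v ≠ 0
  · obtain ⟨v, hv⟩ := hV
    have h0 : (g : V →ₗ[F] V) v ≠ 0 := by
      intro h0
      exact hv ((map_eq_zero_iff _ g.injective).1 h0)
    obtain ⟨τ, hτ⟩ := exists_algEquiv (g : V →ₗ[F] V) h0 h
    exact ⟨τ, hτ⟩
  · push Not at hV
    exact ⟨AlgEquiv.refl, fun c v => by rw [hV (g _), hV (g v), smul_zero]⟩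

/-- Restriction of scalars. -/
def res (F : Type*) {K V : Type*} [Field F] [Field K] [Algebra F K] [AddCommGroup V] [Module F V]
    [Module K V] [IsScalarTower F K V] : (V ≃ₗ[K] V) →* (V ≃ₗ[F] V) where
  toFun g := g.restrictScalars F
  map_one' := rfl
  map_mul' _ _ := rfl

@[simp] theorem res_apply (g : V ≃ₗ[K] V) (v : V) : res F g v = g v := rfl

theorem res_injective : Function.Injective (res F : (V ≃ₗ[K] V) →* (V ≃ₗ[F] V)) := by
  intro g h hgh
  ext v
  exact LinearEquiv.congr_fun hgh v

theorem res_mem_NK (g : V ≃ₗ[K] V) : res F g ∈ NK F K V :=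
  mem_NK_of_linear fun c v => g.map_smul c v

/-! ### The trace form -/

variable {q : QuadraticForm K V} {Q : QuadraticForm F V}

/-- `Q` is the trace form of `q`. -/
def IsTr (q : QuadraticForm K V) (Q : QuadraticForm F V) : Prop :=
  ∀ v, Q v = Algebra.trace F K (q v)

theorem IsTr.polar (h : IsTr q Q) (v w : V) : polar Q v w = Algebra.trace F K (polar q v w) := by
  simp only [QuadraticMap.polar, h _, map_sub]

theorem IsTr.res_mem (h : IsTr q Q) {g : V ≃ₗ[K] V} (hg : g ∈ O q) : res F g ∈ O Q := by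
  intro v
  rw [h, h, res_apply, mem_O.1 hg]

theorem IsTr.polar_smul (h : IsTr q Q) (c : K) (v w : V) :
    QuadraticMap.polar Q (c • v) w = Algebra.trace F K (c * QuadraticMap.polar q v w) := by
  rw [h.polar, polar_smul_left, smul_eq_mul]

variable [Finite K]

theorem IsTr.nondeg (h : IsTr q Q) (hQ : Nondeg Q) : Nondeg q := by
  intro x hx
  apply hQ
  intro y
  rw [h.polar, hx, map_zero]

/-- A vector all of whose `K`-multiples are orthogonal to `v`. -/
theorem IsTr.polar_eq_zero (h : IsTr q Q) {u v : V}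
    (huv : ∀ c : K, QuadraticMap.polar Q (c • u) v = 0) : QuadraticMap.polar q u v = 0 := by
  apply trace_eq_zero (F := F)
  intro c
  rw [← h.polar_smul, huv]

theorem IsTr.polar_ext (h : IsTr q Q) {u v w : V}
    (huv : ∀ c : K, QuadraticMap.polar Q (c • u) v = QuadraticMap.polar Q (c • u) w) :
    QuadraticMap.polar q u v = QuadraticMap.polar q u w := by
  rw [← sub_eq_zero, ← polar_sub_right]
  apply h.polar_eq_zero
  intro c
  rw [polar_sub_right, huv, sub_self]

theorem IsTr.sing (h : IsTr q Q) (h2 : (2 : K) ≠ 0) {u : V} (hu : ∀ c : K, Q (c • u) = 0) :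
    q u = 0 := by
  apply trace_sq_eq_zero (F := F) h2
  intro c
  rw [← hu c, h, QuadraticMap.map_smul, smul_eq_mul, pow_two]

theorem IsTr.sing_smul (h : IsTr q Q) {u : V} (hu : q u = 0) (c : K) : Q (c • u) = 0 := by
  rw [h, QuadraticMap.map_smul, hu, smul_zero, map_zero]

/-! ### Geometry over `K` -/

/-- The radical of `u^⊥` is `K u`. -/
theorem mem_line_of_perp_perp (hq : Nondeg q) {u y : V}
    (h : ∀ x, QuadraticMap.polar q u x = 0 → QuadraticMap.polar q x y = 0) : ∃ c : K, y = c • u := by
  by_contra hcon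
  push Not at hcon
  obtain ⟨z, hz1, hz2⟩ := exists_sep hq hcon
  have := h z hz1
  rw [QuadraticMap.polar_comm, hz2] at this
  exact one_ne_zero this

end Cfsg.Agent.H923.KF
end

-- part: H923/KUnip
section
/-!
Squares and unipotent elements of `O Q` are in `E Q` (odd characteristic); the unipotent radical of
a `K`-singular `K`-line.
-/

set_option autoImplicit false
set_option linter.unusedSectionVars false

namespace Cfsg.Agent.H923.KF

open QuadraticMap Module Cfsg.Agent.LieClassical.OrthCore Cfsg.Agent.LieClassical.OrthTrans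
  Cfsg.Agent.LieClassical.OrthSimple Cfsg.Agent.ClassicalGeometry.OrthAutBasic
open scoped commutatorElement

section Base

variable {F V : Type*} [Field F] [AddCommGroup V] [Module F V] {Q : QuadraticForm F V}

/-- Squares of isometries are in `E Q`. -/
theorem sq_mem_E [FiniteDimensional F V] (hG : Good Q) {g : V ≃ₗ[F] V} (hg : g ∈ O Q) :
    g * g ∈ E Q := by
  have key : ∀ g ∈ Subgroup.closure (reflSet Q ∪ siegelSet Q), g ∈ O Q ∧ g * g ∈ E Q := by
    intro g hg
    induction hg using Subgroup.closure_induction with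
    | mem x hx =>
      rcases hx with ⟨v, hv, rfl⟩ | ⟨u, w, hu, hw, rfl⟩
      · refine ⟨refl_mem_O hv, ?_⟩
        rw [refl_mul_self]
        exact (E Q).one_mem
      · exact ⟨siegel_mem_O hu hw, (E Q).mul_mem (siegel_mem_E hu hw) (siegel_mem_E hu hw)⟩
    | one => exact ⟨(O Q).one_mem, by rw [mul_one]; exact (E Q).one_mem⟩
    | mul x y _ _ hx hy =>
      refine ⟨(O Q).mul_mem hx.1 hy.1, ?_⟩
      have e : x * y * (x * y) = (x * x) * (⁅x⁻¹, y⁆ * (y * y)) := by
        rw [commutatorElement_def]; group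
      rw [e]
      refine (E Q).mul_mem hx.2 ((E Q).mul_mem ?_ hy.2)
      exact hG.commutator_le_E (Subgroup.commutator_mem_commutator ((O Q).inv_mem hx.1) hy.1)
    | inv x _ hx =>
      refine ⟨(O Q).inv_mem hx.1, ?_⟩
      have e : x⁻¹ * x⁻¹ = (x * x)⁻¹ := by group
      rw [e]
      exact (E Q).inv_mem hx.2
  rw [O_eq_closure hG.nondeg] at hg
  exact (key g hg).2

/-- Powers of a cubic unipotent map. -/
theorem pow_eq_one_of_cube {p : ℕ} [Fact p.Prime] [CharP F p] (hp : p ≠ 2) {g : V ≃ₗ[F] V}
    (h3 : ∀ v, g (g (g v - v) - (g v - v)) - (g (g v - v) - (g v - v)) = 0) : g ^ p = 1 := by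
  by_cases hV : ∃ v : V, v ≠ 0
  · obtain ⟨v₀, hv₀⟩ := hV
    have : Nontrivial V := ⟨v₀, 0, hv₀⟩
    have : CharP (Module.End F V) p :=
      charP_of_injective_algebraMap (algebraMap F (Module.End F V)).injective p
    set N : Module.End F V := (g : V →ₗ[F] V) - 1 with hN
    have hNa : ∀ v, N v = g v - v := fun v => rfl
    have hN3 : N ^ 3 = 0 := by
      ext v
      have e : (N ^ 3) v = N (N (N v)) := by rw [pow_succ, pow_two]; rfl
      rw [e]
      simp only [hNa]
      exact h3 v
    have hp3 : 3 ≤ p := by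
      have := (Fact.out : p.Prime).two_le
      omega
    have hNp : N ^ p = 0 := by
      obtain ⟨k, rfl⟩ := Nat.exists_eq_add_of_le hp3
      rw [pow_add, hN3, zero_mul]
    have hg : (g : Module.End F V) = 1 + N := by rw [hN]; abel
    have hgp : (g : Module.End F V) ^ p = 1 := by
      rw [hg, add_pow_char_of_commute p (Commute.one_left N), one_pow, hNp, add_zero]
    have hpow : ∀ (n : ℕ) (v : V), (g ^ n) v = ((g : Module.End F V) ^ n) v := by
      intro n
      induction n with
      | zero => intro v; rfl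
      | succ n ih =>
        intro v
        rw [pow_succ, pow_succ]
        exact ih (g v)
    ext v
    rw [hpow, hgp]
    rfl
  · push Not at hV
    ext v
    rw [hV v, map_zero, map_zero]

/-- Cubic unipotent isometries are in `E Q`. -/
theorem unip_mem_E [FiniteDimensional F V] (hG : Good Q) {p : ℕ} [Fact p.Prime] [CharP F p]
    (hp : p ≠ 2) {g : V ≃ₗ[F] V} (hg : g ∈ O Q)
    (h3 : ∀ v, g (g (g v - v) - (g v - v)) - (g (g v - v) - (g v - v)) = 0) : g ∈ E Q := by
  have h1 := pow_eq_one_of_cube hp h3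
  have hodd : Odd p := (Fact.out : p.Prime).odd_of_ne_two hp
  obtain ⟨m, hm⟩ := hodd
  have e : g = g ^ (m + 1) * g ^ (m + 1) := by
    rw [← pow_add]
    have : m + 1 + (m + 1) = p + 1 := by omega
    rw [this, pow_succ, h1, one_mul]
  rw [e]
  exact sq_mem_E hG ((O Q).pow_mem hg _)

end Base

variable {F K V : Type*} [Field F] [Field K] [Algebra F K] [AddCommGroup V] [Module F V]
  [Module K V] [IsScalarTower F K V] {q : QuadraticForm K V} {Q : QuadraticForm F V} [Finite K]

/-- The unipotent radical attached to `K u`. -/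
def Rad (q : QuadraticForm K V) (u : V) (g : V ≃ₗ[F] V) : Prop :=
  (∀ c : K, g (c • u) = c • u) ∧ ∀ w, polar q u w = 0 → ∃ c : K, g w = w + c • u

theorem Rad.sub_perp (hT : IsTr q Q) {u : V} {g : V ≃ₗ[F] V} (hg : g ∈ O Q) (h : Rad q u g)
    (v : V) : polar q u (g v - v) = 0 := by
  rw [polar_sub_right, sub_eq_zero]
  apply hT.polar_ext
  intro c
  conv_lhs => rw [← h.1 c]
  rw [polar_map hg]

theorem Rad.cube (hT : IsTr q Q) {u : V} {g : V ≃ₗ[F] V} (hg : g ∈ O Q) (h : Rad q u g)
    (v : V) : g (g (g v - v) - (g v - v)) - (g (g v - v) - (g v - v)) = 0 := by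
  obtain ⟨c, hc⟩ := h.2 _ (h.sub_perp hT hg v)
  rw [hc, add_sub_cancel_left, h.1, sub_self]

theorem Rad.mem_E [FiniteDimensional F V] (hT : IsTr q Q) (hG : Good Q) {p : ℕ} [Fact p.Prime]
    [CharP F p] (hp : p ≠ 2) {u : V} {g : V ≃ₗ[F] V} (hg : g ∈ O Q) (h : Rad q u g) : g ∈ E Q :=
  unip_mem_E hG hp hg (h.cube hT hg)

theorem rad_T {u x : V} (hu : q u = 0) (hx : polar q u x = 0) : Rad q u (res F (T q u x)) := by
  constructor
  · intro c
    rw [res_apply, map_smul, T_apply_self hu hx]
  · intro w hw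
    refine ⟨-polar q x w, ?_⟩
    rw [res_apply, T_apply_perp hu hx hw, neg_smul, sub_eq_add_neg]

/-- The `K`-Siegel maps are in `Ω`. -/
theorem res_T_mem_E [FiniteDimensional F V] (hT : IsTr q Q) (hG : Good Q) {p : ℕ} [Fact p.Prime]
    [CharP F p] (hp : p ≠ 2) (u x : V) : res F (T q u x) ∈ E Q := by
  by_cases h : q u = 0 ∧ polar q u x = 0
  · exact (rad_T h.1 h.2).mem_E hT hG hp (hT.res_mem (T_mem_O u x))
  · rw [T_eq_one h, map_one]
    exact (E Q).one_mem

end Cfsg.Agent.H923.KF
end

-- part: H923/Thin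
section
/-!
Overgroups `H` of the normaliser of `K` in `Ω(Q)`, `Q` the trace form of the `K`-form `q`. `H` is
*thin* at the `K`-singular vector `u` if its intersection with the unipotent radical of the stabiliser
of `K u` consists of `K`-Siegel maps. Then the stabiliser of `K u` in `H` normalises `K`.
-/

set_option autoImplicit false
set_option linter.unusedSectionVars false

namespace Cfsg.Agent.H923.KF

open QuadraticMap Module Cfsg.Agent.LieClassical.OrthCore Cfsg.Agent.LieClassical.OrthTrans
  Cfsg.Agent.LieClassical.OrthSimple Cfsg.Agent.ClassicalGeometry.OrthAutBasic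
open scoped commutatorElement

variable {F K V : Type*} [Field F] [Field K] [Algebra F K] [AddCommGroup V] [Module F V]
  [Module K V] [IsScalarTower F K V] {q : QuadraticForm K V} {Q : QuadraticForm F V}

/-- The standing hypotheses on an overgroup of `N_Ω(K)`. -/
structure Over (q : QuadraticForm K V) (Q : QuadraticForm F V) (H : Subgroup (V ≃ₗ[F] V)) :
    Prop where
  tr : IsTr q Q
  good : Good Q
  le : H ≤ E Q
  mem : ∀ g ∈ E Q, g ∈ NK F K V → g ∈ H

/-- Thinness at `u`. -/
def Thin (q : QuadraticForm K V) (H : Subgroup (V ≃ₗ[F] V)) (u : V) : Prop :=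
  ∀ g ∈ H, Rad q u g → ∃ x, polar q u x = 0 ∧ g = res F (T q u x)

section

variable {H : Subgroup (V ≃ₗ[F] V)} [Finite K] [FiniteDimensional F V]

theorem Over.leO (h : Over q Q H) : H ≤ O Q := h.le.trans E_le_O

theorem Over.nondeg (h : Over q Q H) : Nondeg q := h.tr.nondeg h.good.nondeg

theorem Over.T_mem (h : Over q Q H) {p : ℕ} [Fact p.Prime] [CharP F p] (hp : p ≠ 2) (u x : V) :
    res F (T q u x) ∈ H :=
  h.mem _ (res_T_mem_E h.tr h.good hp u x) (res_mem_NK _)

/-- An isometry preserving `K u` preserves its orthogonal complement. -/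
theorem perp_of_line (hT : IsTr q Q) {u : V} {g : V ≃ₗ[F] V} (hg : g ∈ O Q)
    (hgu : ∀ c : K, ∃ d : K, g (d • u) = c • u) {w : V} (hw : polar q u w = 0) :
    polar q u (g w) = 0 := by
  apply hT.polar_eq_zero
  intro c
  obtain ⟨d, hd⟩ := hgu c
  rw [← hd, polar_map hg, hT.polar_smul, hw, mul_zero, map_zero]

/-- Surjectivity on the line. -/
theorem line_surj {u : V} (hu0 : u ≠ 0) {g : V ≃ₗ[F] V} (h : ∀ c : K, ∃ d : K, g (c • u) = d • u)
    (c : K) : ∃ d : K, g (d • u) = c • u := by
  choose t ht using h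
  have hinj : Function.Injective t := by
    intro a b hab
    have h1 : g (a • u) = g (b • u) := by rw [ht, ht, hab]
    have h2 := g.injective h1
    rw [← sub_eq_zero, ← sub_smul] at h2
    exact sub_eq_zero.1 ((smul_eq_zero.1 h2).resolve_right hu0)
  obtain ⟨d, hd⟩ := (Finite.injective_iff_surjective.1 hinj) c
  exact ⟨d, by rw [ht, hd]⟩

/-- **The stabiliser of a thin `K`-line normalises `K`.** -/
theorem Over.stab (h : Over q Q H) {p : ℕ} [Fact p.Prime] [CharP F p] (hp : p ≠ 2)
    (hK : 3 ≤ finrank K V) {u : V} (hu : q u = 0) (hu0 : u ≠ 0) (hthin : Thin q H u)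
    {g : V ≃ₗ[F] V} (hg : g ∈ H) (hgu : ∀ c : K, ∃ d : K, g (c • u) = d • u) :
    g ∈ NK F K V := by
  have hT := h.tr
  have hq := h.nondeg
  have hgO := h.leO hg
  have h2 : (2 : K) ≠ 0 := by
    have : CharP K p := charP_of_injective_algebraMap (algebraMap F K).injective p
    exact CharP.cast_ne_zero_of_ne_of_prime K Nat.prime_two hp
  have h2' : (2 : F) ≠ 0 := CharP.cast_ne_zero_of_ne_of_prime F Nat.prime_two hp
  obtain ⟨u', hyp⟩ := exists_hyp hq hu hu0
  have hsurj := line_surj hu0 hgu
  have hperp : ∀ {w : V}, polar q u w = 0 → polar q u (g w) = 0 := fun hw =>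
    perp_of_line hT hgO hsurj hw
  have hginv : ∀ c : K, ∃ d : K, g⁻¹ (c • u) = d • u := by
    intro c
    obtain ⟨d, hd⟩ := hsurj c
    exact ⟨d, by rw [← hd]; exact g.symm_apply_apply _⟩
  have hperp' : ∀ {w : V}, polar q u w = 0 → polar q u (g⁻¹ w) = 0 := fun hw =>
    perp_of_line hT ((O Q).inv_mem hgO) (line_surj hu0 hginv) hw
  have hgg : ∀ v : V, g (g⁻¹ v) = v := fun v => g.apply_symm_apply v
  have hgg' : ∀ v : V, g⁻¹ (g v) = v := fun v => g.symm_apply_apply v
  -- the action on the line
  let γ : K →ₗ[F] K :=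
    { toFun := fun c => polar q u' (g (c • u))
      map_add' := fun a b => by rw [add_smul, map_add, polar_add_right]
      map_smul' := fun r a => by
        rw [RingHom.id_apply, smul_assoc, map_smul, ← algebraMap_smul K r (g (a • u)),
          polar_smul_right, smul_eq_mul, Algebra.smul_def] }
  have hγ : ∀ c : K, g (c • u) = γ c • u := by
    intro c
    obtain ⟨d, hd⟩ := hgu c
    have : γ c = d := by
      change polar q u' (g (c • u)) = d
      rw [hd, polar_smul_right, hyp.pair', smul_eq_mul, mul_one]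
    rw [this, hd]
  have hγinj : ∀ {c d : K}, γ c = γ d → c = d := by
    intro c d hcd
    have h1 : g (c • u) = g (d • u) := by rw [hγ, hγ, hcd]
    have h2 := g.injective h1
    rw [← sub_eq_zero, ← sub_smul] at h2
    exact sub_eq_zero.1 ((smul_eq_zero.1 h2).resolve_right hu0)
  have hγ1 : γ 1 ≠ 0 := by
    intro h0
    have : (1 : K) = 0 := hγinj (by rw [h0, map_zero])
    exact one_ne_zero this
  -- conjugates of the Siegel maps
  have hconj : ∀ x : V, polar q u x = 0 → ∃ x' : V, polar q u x' = 0 ∧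
      ∀ v : V, g (T q u x v) = T q u x' (g v) := by
    intro x hx
    obtain ⟨x', hx', he⟩ := hthin (g * res F (T q u x) * g⁻¹)
      (H.mul_mem (H.mul_mem hg (h.T_mem hp u x)) (H.inv_mem hg)) (by
        constructor
        · intro c
          obtain ⟨d, hd⟩ := hginv c
          change g (T q u x (g⁻¹ (c • u))) = c • u
          rw [hd, map_smul, T_apply_self hu hx, ← hd, hgg]
        · intro w hw
          change ∃ c : K, g (T q u x (g⁻¹ w)) = w + c • u
          rw [T_apply_perp hu hx (hperp' hw), map_sub, hgg, hγ]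
          exact ⟨-γ (polar q x (g⁻¹ w)), by rw [neg_smul, sub_eq_add_neg]⟩)
    refine ⟨x', hx', fun v => ?_⟩
    have := LinearEquiv.congr_fun he (g v)
    change g (T q u x (g⁻¹ (g v))) = T q u x' (g v) at this
    rwa [hgg'] at this
  have hb : ∀ x x' : V, polar q u x = 0 → polar q u x' = 0 →
      (∀ v : V, g (T q u x v) = T q u x' (g v)) → ∀ w : V, polar q u w = 0 →
      γ (polar q x w) = polar q x' (g w) := by
    intro x x' hx hx' he w hw
    have h1 := he w
    rw [T_apply_perp hu hx hw, T_apply_perp hu hx' (hperp hw), map_sub, hγ, sub_right_inj] at h1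
    rw [← sub_eq_zero, ← sub_smul] at h1
    exact sub_eq_zero.1 ((smul_eq_zero.1 h1).resolve_right hu0)
  choose! σ hσ hσT using hconj
  have hσb : ∀ x : V, polar q u x = 0 → ∀ w : V, polar q u w = 0 →
      γ (polar q x w) = polar q (σ x) (g w) := fun x hx w hw => hb x (σ x) hx (hσ x hx) (hσT x hx) w hw
  -- a pair in `u^⊥`
  obtain ⟨x₀, w₀, hx₀, -, hw₀, -, hxw⟩ := exists_perp2 hq hK hyp
  have hsemi : ∀ c : K, ∃ c' : K, ∀ d : K, γ (c • d) = c' • γ d := by
    intro c
    set y₀ : V := (γ 1)⁻¹ • g w₀ with hy₀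
    have hy₀p : polar q u y₀ = 0 := by rw [hy₀, polar_smul_right, hperp hw₀, smul_zero]
    have hx₀y₀ : polar q (σ x₀) y₀ = 1 := by
      rw [hy₀, polar_smul_right, ← hσb x₀ hx₀ w₀ hw₀, hxw, smul_eq_mul, inv_mul_cancel₀ hγ1]
    have hcx : polar q u (c • x₀) = 0 := by rw [polar_smul_right, hx₀, smul_zero]
    refine ⟨polar q (σ (c • x₀)) y₀, fun d => ?_⟩
    set w : V := g⁻¹ (γ d • y₀) with hw
    have hwp : polar q u w = 0 := hperp' (by rw [polar_smul_right, hy₀p, smul_zero])
    have hgw : g w = γ d • y₀ := hgg _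
    have h1 : polar q x₀ w = d := by
      apply hγinj
      rw [hσb x₀ hx₀ w hwp, hgw, polar_smul_right, hx₀y₀, smul_eq_mul, mul_one]
    have h3 := hσb (c • x₀) hcx w hwp
    rw [polar_smul_left, h1, hgw, polar_smul_right, smul_eq_mul, smul_eq_mul] at h3
    rw [smul_eq_mul, h3, smul_eq_mul, mul_comm]
  obtain ⟨τ, hτ⟩ := exists_algEquiv (F := F) (K := K) γ (a₀ := 1) hγ1 hsemi
  have hτγ : ∀ c : K, γ c = τ c * γ 1 := by
    intro c
    have := hτ c 1
    rwa [smul_eq_mul, smul_eq_mul, mul_one] at this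
  -- semilinear modulo the line
  have hmod : ∀ (c : K) (w : V), polar q u w = 0 → ∃ e : K, g (c • w) = τ c • g w + e • u := by
    intro c w hw
    have hcw : polar q u (c • w) = 0 := by rw [polar_smul_right, hw, smul_zero]
    set y : V := g (c • w) - τ c • g w with hy
    have hyp' : polar q u y = 0 := by
      rw [hy, polar_sub_right, polar_smul_right, hperp hcw, hperp hw, smul_zero, sub_zero]
    have h1 : ∀ x, polar q u x = 0 → polar q x (g⁻¹ y) = 0 := by
      intro x hx
      apply hγinj
      rw [hσb x hx _ (hperp' hyp'), hgg, map_zero, hy, polar_sub_right, polar_smul_right,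
        ← hσb x hx _ hcw, ← hσb x hx _ hw, polar_smul_right, hτ, sub_self]
    obtain ⟨e, he⟩ := mem_line_of_perp_perp hq h1
    refine ⟨γ e, ?_⟩
    have h3 : y = γ e • u := by rw [← hgg y, he, hγ]
    rw [← h3, hy]
    abel
  -- values of the form
  have hval : ∀ w : V, polar q u w = 0 → q (g w) = τ (q w) := by
    intro w hw
    rw [← sub_eq_zero]
    apply trace_sq_eq_zero (F := F) h2
    intro e
    obtain ⟨c, rfl⟩ := τ.surjective e
    obtain ⟨a, ha⟩ := hmod c w hw
    have h1 : Q (g (c • w)) = Q (c • w) := mem_O.1 hgO _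
    rw [hT, hT, ha, Q_add, QuadraticMap.map_smul, QuadraticMap.map_smul, hu, polar_smul_left,
      polar_smul_right, polar_comm q (g w) u, hperp hw, smul_zero, smul_zero, smul_zero, add_zero,
      add_zero, QuadraticMap.map_smul, ← trace_algEquiv (F := F) τ (_ • q w), smul_eq_mul,
      smul_eq_mul, map_mul τ, map_mul τ] at h1
    rw [mul_sub, map_sub, sub_eq_zero, pow_two]
    exact h1
  -- the graded semilinear isometry
  let P : V →ₗ[K] V := LinearMap.id - (polarBilin q u').smulRight u - (polarBilin q u).smulRight u'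
  have hP : ∀ v, P v = v - polar q u' v • u - polar q u v • u' := by
    intro v
    simp only [P, LinearMap.sub_apply, LinearMap.id_apply, LinearMap.smulRight_apply,
      polarBilin_apply_apply]
  have hPu : ∀ v, polar q u (P v) = 0 := by
    intro v
    rw [hP, polar_sub_right, polar_sub_right, polar_smul_right, polar_smul_right, hyp.polar_left,
      hyp.pair, smul_eq_mul, smul_eq_mul]
    ring
  have hPu' : ∀ v, polar q u' (P v) = 0 := by
    intro v
    rw [hP, polar_sub_right, polar_sub_right, polar_smul_right, polar_smul_right, hyp.polar_right,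
      hyp.pair', smul_eq_mul, smul_eq_mul]
    ring
  have hdec : ∀ v, v = polar q u' v • u + P v + polar q u v • u' := by
    intro v
    rw [hP]
    module
  have hqdec : ∀ (a b : K) (w : V), polar q u w = 0 → polar q u' w = 0 →
      q (a • u + w + b • u') = a * b + q w := by
    intro a b w hw hw'
    rw [Q_add, Q_add, QuadraticMap.map_smul, QuadraticMap.map_smul, hyp.left, hyp.right,
      polar_add_left, polar_smul_left, polar_smul_left, polar_smul_right, polar_smul_right,
      hyp.pair, hw, polar_comm q w u', hw', smul_zero, smul_zero, smul_zero, smul_zero]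
    simp only [smul_eq_mul]
    ring
  let G : V →ₗ[F] V :=
    { toFun := fun v => (τ (polar q u' v) * γ 1) • u + P (g (P v)) +
        (τ (polar q u v) * (γ 1)⁻¹) • u'
      map_add' := fun v w => by
        rw [polar_add_right, polar_add_right, map_add, map_add, map_add, map_add, map_add]
        module
      map_smul' := fun r v => by
        have e1 : ∀ x : V, polar q x (r • v) = algebraMap F K r * polar q x v := by
          intro x
          rw [← algebraMap_smul K r v, polar_smul_right, smul_eq_mul]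
        rw [RingHom.id_apply, e1, e1, map_mul, map_mul, AlgEquiv.commutes,
          ← algebraMap_smul K r v, map_smul, algebraMap_smul K r (P v), map_smul,
          ← algebraMap_smul K r (g (P v)), map_smul, ← algebraMap_smul K r (_ + _ + _)]
        module }
  have hG : ∀ v, G v = (τ (polar q u' v) * γ 1) • u + P (g (P v)) +
        (τ (polar q u v) * (γ 1)⁻¹) • u' := fun _ => rfl
  have hgP : ∀ w, polar q u w = 0 → g w = P (g w) + polar q u' (g w) • u := by
    intro w hw
    conv_lhs => rw [hdec (g w), hperp hw, zero_smul, add_zero]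
    abel
  have hGQ : ∀ v, Q (G v) = Q v := by
    intro v
    have h1 : q (P (g (P v))) = τ (q (P v)) := by
      rw [← hval _ (hPu v)]
      conv_rhs => rw [hgP _ (hPu v)]
      rw [Q_add, QuadraticMap.map_smul, hu, polar_smul_right, polar_comm q _ u, hPu]
      simp
    have e1 : q (G v) = τ (q v) := by
      rw [hG, hqdec _ _ _ (hPu _) (hPu' _), h1]
      conv_rhs => rw [hdec v, hqdec _ _ _ (hPu _) (hPu' _)]
      rw [map_add, map_mul]
      field_simp
    rw [hT, hT, e1, trace_algEquiv]
  have hGinj : Function.Injective G := by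
    rw [injective_iff_map_eq_zero]
    intro v hv
    apply h.good.nondeg
    intro w
    have : polar Q v w = polar Q (G v) (G w) := by
      simp only [QuadraticMap.polar, ← map_add, hGQ]
    rw [this, hv, polar_zero_left]
  let g₀ : V ≃ₗ[F] V := LinearEquiv.ofInjectiveEndo G hGinj
  have hg₀ : ∀ v, g₀ v = G v := fun _ => rfl
  have hg₀O : g₀ ∈ O Q := fun v => hGQ v
  have hg₀N : g₀ ∈ NK F K V := by
    refine ⟨τ, fun c v => ?_⟩
    rw [hg₀, hg₀, hG, hG]
    have e1 : P (g (P (c • v))) = τ c • P (g (P v)) := by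
      rw [map_smul]
      obtain ⟨e, he⟩ := hmod c (P v) (hPu v)
      rw [he, map_add, map_smul]
      have : P (e • u) = 0 := by
        rw [hP, polar_smul_right, polar_smul_right, hyp.pair', hyp.polar_left]
        simp
      rw [this, add_zero]
    rw [e1, polar_smul_right, polar_smul_right, smul_eq_mul, smul_eq_mul, map_mul, map_mul]
    module
  have hg₀u : ∀ c : K, g₀ (c • u) = g (c • u) := by
    intro c
    rw [hg₀, hG, hγ]
    have e1 : P (c • u) = 0 := by
      rw [hP, polar_smul_right, polar_smul_right, hyp.pair', hyp.polar_left]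
      simp
    rw [e1, map_zero, map_zero, polar_smul_right, polar_smul_right, hyp.pair', hyp.polar_left,
      smul_eq_mul, smul_eq_mul, mul_one, mul_zero, map_zero, zero_mul, zero_smul, add_zero,
      add_zero, hτγ c]
  have hinv0 : ∀ v, g₀⁻¹ (g₀ v) = v := fun v => g₀.symm_apply_apply v
  have hinv0' : ∀ v, g₀ (g₀⁻¹ v) = v := fun v => g₀.apply_symm_apply v
  have hRad : Rad q u (g₀⁻¹ * g) := by
    constructor
    · intro c
      change g₀⁻¹ (g (c • u)) = c • u
      rw [← hg₀u, hinv0]
    · intro w hw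
      change ∃ c : K, g₀⁻¹ (g w) = w + c • u
      -- `g w - g₀ w` is in the line
      obtain ⟨e, he⟩ : ∃ e : K, g w = g₀ w + e • u := by
        have hw1 : w = polar q u' w • u + P w := by
          conv_lhs => rw [hdec w, hw, zero_smul, add_zero]
        have h1 : g w = g (polar q u' w • u) + g (P w) := by
          conv_lhs => rw [hw1, map_add]
        have h3 : g₀ w = g (polar q u' w • u) + P (g (P w)) := by
          conv_lhs => rw [hw1, map_add, hg₀u]
          congr 1
          rw [hg₀, hG]
          have e1 : P (P w) = P w := by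
            rw [hP (P w), hPu, hPu', zero_smul, zero_smul, sub_zero, sub_zero]
          rw [e1, hPu, hPu', map_zero, zero_mul, zero_mul, zero_smul, zero_smul, zero_add, add_zero]
        refine ⟨polar q u' (g (P w)), ?_⟩
        rw [h1, h3, add_assoc]
        congr 1
        exact hgP _ (hPu w)
      obtain ⟨d, hd⟩ := hsurj e
      refine ⟨d, ?_⟩
      rw [he, ← hd, ← hg₀u, map_add, hinv0, hinv0]
  have hρO : g₀⁻¹ * g ∈ O Q := (O Q).mul_mem ((O Q).inv_mem hg₀O) hgO
  have hρE : g₀⁻¹ * g ∈ E Q := hRad.mem_E hT h.good hp hρO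
  have hg₀E : g₀ ∈ E Q := by
    have : g₀ = g * (g₀⁻¹ * g)⁻¹ := by group
    rw [this]
    exact (E Q).mul_mem (h.le hg) ((E Q).inv_mem hρE)
  have hg₀H : g₀ ∈ H := h.mem _ hg₀E hg₀N
  obtain ⟨x, hx, he⟩ := hthin _ (H.mul_mem (H.inv_mem hg₀H) hg) hRad
  have : g = g₀ * res F (T q u x) := by rw [← he]; group
  rw [this]
  exact (NK F K V).mul_mem hg₀N (res_mem_NK _)

end

end Cfsg.Agent.H923.KF
end

-- part: H923/Star
section
/-!
Overgroups of `N_Ω(K)`, thin case: a conjugate of a `K`-Siegel map `T_q(u, x)`, `q x ≠ 0`, that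
normalises `K` is conjugate by an element normalising `K`.
-/

set_option autoImplicit false
set_option linter.unusedSectionVars false

namespace Cfsg.Agent.H923.KF

open QuadraticMap Module Cfsg.Agent.LieClassical.OrthCore Cfsg.Agent.LieClassical.OrthTrans
  Cfsg.Agent.LieClassical.OrthSimple Cfsg.Agent.ClassicalGeometry.OrthAutBasic
open scoped commutatorElement

section Trans

variable {K V : Type*} [Field K] [AddCommGroup V] [Module K V] {q : QuadraticForm K V}

/-- Two nonzero singular vectors have a common opposite (dimension at least three). -/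
theorem common_opposite (hq : Nondeg q) (hK : 3 ≤ finrank K V) {x y : V} (hx : q x = 0)
    (hy : q y = 0) (hx0 : x ≠ 0) (hy0 : y ≠ 0) :
    ∃ z, q z = 0 ∧ polar q z x ≠ 0 ∧ polar q z y ≠ 0 := by
  by_cases hxy : polar q x y = 0
  · obtain ⟨v, hv1, hv2⟩ : ∃ v, polar q x v ≠ 0 ∧ polar q y v ≠ 0 := by
      obtain ⟨a, ha⟩ := hq.exists_polar_ne hx0
      obtain ⟨b, hb⟩ := hq.exists_polar_ne hy0
      by_cases h1 : polar q y a = 0
      · by_cases h2 : polar q x b = 0
        · exact ⟨a + b, by rw [polar_add_right, h2, add_zero]; exact ha,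
            by rw [polar_add_right, h1, zero_add]; exact hb⟩
        · exact ⟨b, h2, hb⟩
      · exact ⟨a, ha, h1⟩
    refine ⟨v + (-(q v) * (polar q x v)⁻¹) • x, ?_, ?_, ?_⟩
    · rw [Q_add, QuadraticMap.map_smul, hx, smul_zero, add_zero, polar_smul_right,
        polar_comm q v x, smul_eq_mul]
      field_simp
      ring
    · rw [polar_add_left, polar_smul_left, polar_self_of_sing hx, smul_zero, add_zero,
        polar_comm q v x]
      exact hv1
    · rw [polar_add_left, polar_smul_left, hxy, smul_zero, add_zero, polar_comm q v y]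
      exact hv2
  · have hyp : Hyp q x ((polar q x y)⁻¹ • y) := by
      refine ⟨hx, ?_, ?_⟩
      · rw [QuadraticMap.map_smul, hy, smul_zero]
      · rw [polar_smul_right, smul_eq_mul, inv_mul_cancel₀ hxy]
    obtain ⟨a, c, ha1, ha2, hc1, hc2, hac⟩ := exists_perp2 hq hK hyp
    obtain ⟨w, hw, hxw, hyw⟩ : ∃ w, q w ≠ 0 ∧ polar q x w = 0 ∧
        polar q ((polar q x y)⁻¹ • y) w = 0 := by
      rcases exists_nonsing hac with h | h | h
      · exact ⟨a, h, ha1, ha2⟩
      · exact ⟨c, h, hc1, hc2⟩
      · exact ⟨a + c, h, by rw [polar_add_right, ha1, hc1, add_zero],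
          by rw [polar_add_right, ha2, hc2, add_zero]⟩
    have hyw' : polar q y w = 0 := by
      rw [polar_smul_left, smul_eq_mul] at hyw
      rcases mul_eq_zero.1 hyw with h | h
      · exact absurd (inv_eq_zero.1 h) hxy
      · exact h
    refine ⟨x + w - q w • ((polar q x y)⁻¹ • y), sing_vec hyp hxw hyw, ?_, ?_⟩
    · rw [polar_sub_left, polar_add_left, polar_smul_left, hyp.pair', polar_comm q w x, hxw,
        polar_self_of_sing hx, smul_eq_mul, mul_one, zero_add, zero_sub]
      exact neg_ne_zero.2 hw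
    · rw [polar_sub_left, polar_add_left, polar_smul_left, polar_smul_left, polar_comm q w y, hyw',
        polar_self_of_sing hy, smul_zero, smul_zero, add_zero, sub_zero]
      exact hxy

/-- A Siegel map moving one singular point to another. -/
theorem exists_T_move (hq : Nondeg q) (hK : 3 ≤ finrank K V) {x y : V} (hx : q x = 0)
    (hy : q y = 0) (hx0 : x ≠ 0) (hy0 : y ≠ 0) :
    ∃ (z w : V) (c : K), c ≠ 0 ∧ T q z w y = c • x := by
  obtain ⟨z, hz, hzx, hzy⟩ := common_opposite hq hK hx hy hx0 hy0
  have h1 : Hyp q z ((polar q z y)⁻¹ • y) :=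
    ⟨hz, by rw [QuadraticMap.map_smul, hy, smul_zero],
      by rw [polar_smul_right, smul_eq_mul, inv_mul_cancel₀ hzy]⟩
  have h2 : Hyp q z ((polar q z x)⁻¹ • x) :=
    ⟨hz, by rw [QuadraticMap.map_smul, hx, smul_zero],
      by rw [polar_smul_right, smul_eq_mul, inv_mul_cancel₀ hzx]⟩
  refine ⟨z, (polar q z x)⁻¹ • x - (polar q z y)⁻¹ • y, polar q z y * (polar q z x)⁻¹,
    mul_ne_zero hzy (inv_ne_zero hzx), ?_⟩
  have h3 := T_partner h1 h2
  rw [map_smul] at h3
  have h4 : polar q z y • ((polar q z y)⁻¹ • T q z ((polar q z x)⁻¹ • x - (polar q z y)⁻¹ • y) y) =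
      polar q z y • ((polar q z x)⁻¹ • x) := by rw [h3]
  rwa [smul_smul, mul_inv_cancel₀ hzy, one_smul, smul_smul] at h4

end Trans

variable {F K V : Type*} [Field F] [Field K] [Algebra F K] [AddCommGroup V] [Module F V]
  [Module K V] [IsScalarTower F K V] {q : QuadraticForm K V} {Q : QuadraticForm F V}
  {H : Subgroup (V ≃ₗ[F] V)} [Finite K] [FiniteDimensional F V]

/-- An Artin--Schreier element for a cubic unipotent automorphism. -/
theorem exists_artin_schreier {τ : K ≃ₐ[F] K} (hne : τ ≠ AlgEquiv.refl)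
    (h3 : ∀ c : K, τ (τ (τ c)) - 3 * τ (τ c) + 3 * τ c - c = 0) : ∃ c : K, τ c = c + 1 := by
  have hex : ∃ e : K, τ e - e ≠ 0 ∧ τ (τ e - e) = τ e - e := by
    obtain ⟨e, he⟩ : ∃ e, τ e ≠ e := by
      by_contra hcon
      push Not at hcon
      exact hne (AlgEquiv.ext hcon)
    have he' : τ e - e ≠ 0 := sub_ne_zero.2 he
    by_cases h2 : τ (τ e - e) = τ e - e
    · exact ⟨e, he', h2⟩
    · refine ⟨τ e - e, sub_ne_zero.2 h2, ?_⟩
      have := h3 e
      simp only [map_sub]
      linear_combination this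
  obtain ⟨e, he, hfix⟩ := hex
  refine ⟨e / (τ e - e), ?_⟩
  rw [map_div₀, hfix]
  field_simp
  ring

/-- The image of `(T - 1)^2`. -/
theorem T_sub_sq {u x : V} (hu : q u = 0) (hx : polar q u x = 0) (v : V) :
    T q u x (T q u x v - v) - (T q u x v - v) = (-(2 * q x * polar q u v)) • u := by
  have e1 : T q u x v - v = polar q u v • x - (polar q x v + q x * polar q u v) • u := by
    rw [T_apply hu hx]; module
  have e2 : T q u x x = x - (2 * q x) • u := by
    rw [T_apply_perp hu hx hx, polar_self']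
  rw [e1, map_sub, map_smul, map_smul, T_apply_self hu hx, e2]
  module

/-- **Fusion of the Siegel maps is controlled by the normaliser of `K`.** -/
theorem Over.star (h : Over q Q H) {p : ℕ} [Fact p.Prime] [CharP F p] (hp : p ≠ 2)
    (hr : (finrank F K).Prime) (hK : 3 ≤ finrank K V)
    (hex : ¬ (p = 3 ∧ finrank F K = 3 ∧ finrank K V = 3))
    {u : V} (hu : q u = 0) (hu0 : u ≠ 0) (hthin : Thin q H u) {x : V} (hx : polar q u x = 0)
    (hqx : q x ≠ 0) {g : V ≃ₗ[F] V} (hg : g ∈ H) (hgN : g⁻¹ * res F (T q u x) * g ∈ NK F K V) :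
    g ∈ NK F K V := by
  have hT := h.tr
  have hq := h.nondeg
  have hgO := h.leO hg
  have : CharP K p := charP_of_injective_algebraMap (algebraMap F K).injective p
  have h2 : (2 : K) ≠ 0 := CharP.cast_ne_zero_of_ne_of_prime K Nat.prime_two hp
  obtain ⟨u', hyp⟩ := exists_hyp hq hu hu0
  have hgg : ∀ v : V, g (g⁻¹ v) = v := fun v => g.apply_symm_apply v
  have hgg' : ∀ v : V, g⁻¹ (g v) = v := fun v => g.symm_apply_apply v
  set y : V ≃ₗ[F] V := g⁻¹ * res F (T q u x) * g with hy
  have hya : ∀ v, y v = g⁻¹ (T q u x (g v)) := fun _ => rfl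
  have hysq : ∀ v, y (y v - v) - (y v - v) = g⁻¹ ((-(2 * q x * polar q u (g v))) • u) := by
    intro v
    have e1 : y v - v = g⁻¹ (T q u x (g v) - g v) := by rw [hya, map_sub, hgg']
    rw [e1, hya, hgg, ← map_sub, T_sub_sq hu hx]
  obtain ⟨τ, hτ⟩ := hgN
  set u₁ : V := g⁻¹ u with hu₁
  have hu₁0 : u₁ ≠ 0 := by
    intro h0
    apply hu0
    rw [← hgg u, ← hu₁, h0, map_zero]
  have hyu₁ : y u₁ = u₁ := by
    rw [hya, hu₁, hgg, T_apply_self hu hx]
  have hycube : ∀ v, y (y (y v - v) - (y v - v)) - (y (y v - v) - (y v - v)) = 0 := by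
    intro v
    rw [hysq v, hya, hgg, map_smul, T_apply_self hu hx, sub_self]
  -- the automorphism is trivial
  have hτ1 : τ = AlgEquiv.refl := by
    by_contra hne
    have h3 : ∀ c : K, τ (τ (τ c)) - 3 * τ (τ c) + 3 * τ c - c = 0 := by
      intro c
      have h4 := hycube (c • u₁)
      simp only [hτ, hyu₁, map_sub] at h4
      have h5 : (τ (τ (τ c)) - 3 * τ (τ c) + 3 * τ c - c) • u₁ = 0 := by
        rw [← h4]
        module
      exact (smul_eq_zero.1 h5).resolve_right hu₁0
    obtain ⟨c, hc⟩ := exists_artin_schreier hne h3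
    by_cases hp3 : p = 3
    · by_cases hr3 : finrank F K = 3
      · have hk4 : 4 ≤ finrank K V := by
          by_contra hlt
          exact hex ⟨hp3, hr3, by omega⟩
        -- a vector fixed by `T q u x` outside the line
        obtain ⟨w, hw0, hw⟩ := exists_perp_ne (Q := q) ![u, x, u'] (by omega)
        have hw1 : polar q u w = 0 := hw 0
        have hw2 : polar q x w = 0 := hw 1
        have hw3 : polar q u' w = 0 := hw 2
        have hyw : y (g⁻¹ w) = g⁻¹ w := by
          rw [hya, hgg, T_apply_fix hu hx hw1 hw2]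
        have h4 := hysq ((c ^ 2) • g⁻¹ w)
        simp only [hτ, hyw, map_sub, map_pow, hc, map_add, map_one] at h4
        have h5 : (2 : K) • g⁻¹ w = g⁻¹ (-(2 * q x * polar q u (g (c ^ 2 • g⁻¹ w))) • u) := by
          rw [← h4]
          module
        have h6 : (2 : K) • g⁻¹ w = g⁻¹ ((2 : K) • w) := by
          rw [two_smul, two_smul, map_add]
        rw [h6] at h5
        have h7 := g⁻¹.injective h5
        have h8 : (2 : K) * polar q u' w = -(2 * q x * polar q u (g (c ^ 2 • g⁻¹ w))) := by
          have := congrArg (polar q u') h7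
          rwa [polar_smul_right, polar_smul_right, hyp.pair', smul_eq_mul, smul_eq_mul,
            mul_one] at this
        rw [hw3, mul_zero] at h8
        rw [← h8, zero_smul] at h7
        exact hw0 ((smul_eq_zero.1 h7).resolve_left h2)
      · -- orders
        have h4 : y ^ p = 1 := pow_eq_one_of_cube hp hycube
        have h5 : ∀ (n : ℕ) (c : K) (v : V), (y ^ n) (c • v) = ((τ ^ n : K ≃ₐ[F] K)) c • (y ^ n) v := by
          intro n
          induction n with
          | zero => intro c v; rfl
          | succ n ih =>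
            intro c v
            have e1 : ∀ z, (y ^ (n + 1)) z = (y ^ n) (y z) := fun z => by rw [pow_succ]; rfl
            rw [e1, e1, hτ, ih, pow_succ]
            rfl
        have h6 : τ ^ p = 1 := by
          ext c
          have := h5 p c u₁
          rw [h4] at this
          change c • u₁ = (τ ^ p) c • u₁ at this
          rw [← sub_eq_zero, ← sub_smul] at this
          exact (sub_eq_zero.1 ((smul_eq_zero.1 this).resolve_right hu₁0)).symm
        have hfF : Finite F := finiteF F K
        have h7 : Nat.card (K ≃ₐ[F] K) = finrank F K := IsGalois.card_aut_eq_finrank F K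
        have h8 : orderOf τ ∣ p := orderOf_dvd_of_pow_eq_one h6
        have h9 : orderOf τ ∣ finrank F K := by rw [← h7]; exact orderOf_dvd_natCard τ
        have h10 : Nat.Coprime p (finrank F K) := by
          rw [Nat.coprime_primes Fact.out hr, hp3]
          exact fun h => hr3 h.symm
        have h11 : orderOf τ = 1 := Nat.eq_one_of_dvd_coprimes h10 h8 h9
        exact hne (orderOf_eq_one_iff.1 h11)
    · have h4 := h3 (c ^ 3)
      simp only [map_pow, hc, map_add, map_one] at h4
      have h5 : (2 : K) * 3 = 0 := by linear_combination h4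
      rcases mul_eq_zero.1 h5 with h6 | h6
      · exact h2 h6
      · exact CharP.cast_ne_zero_of_ne_of_prime K Nat.prime_three hp3 h6
  have hτc : ∀ (c : K) (v : V), y (c • v) = c • y v := by
    intro c v
    rw [hτ, hτ1]
    rfl
  -- the image of the square
  set v₁ : V := (-(2 * q x))⁻¹ • u' with hv₁
  have hv₁u : -(2 * q x * polar q u v₁) = 1 := by
    rw [hv₁, polar_smul_right, hyp.pair, smul_eq_mul, mul_one]
    have : (2 * q x) ≠ 0 := mul_ne_zero h2 hqx
    field_simp
  have hline : ∀ d : K, ∃ c : K, d • u₁ = g⁻¹ (c • u) := by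
    intro d
    have h4 := hysq (d • g⁻¹ v₁)
    refine ⟨_, Eq.trans ?_ h4⟩
    have h5 := hysq (g⁻¹ v₁)
    rw [hgg, hv₁u, one_smul] at h5
    rw [← hu₁] at h5
    rw [hτc, ← smul_sub, hτc, ← smul_sub, h5]
  have hline' : ∀ c : K, ∃ d : K, g⁻¹ (c • u) = d • u₁ := by
    choose t ht using hline
    have hinj : Function.Injective t := by
      intro a b hab
      have h4 : a • u₁ = b • u₁ := by rw [ht, ht, hab]
      rw [← sub_eq_zero, ← sub_smul] at h4
      exact sub_eq_zero.1 ((smul_eq_zero.1 h4).resolve_right hu₁0)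
    intro c
    obtain ⟨d, hd⟩ := (Finite.injective_iff_surjective.1 hinj) c
    exact ⟨d, by rw [ht, hd]⟩
  have hu₁s : q u₁ = 0 := by
    apply hT.sing h2
    intro d
    obtain ⟨c, hc⟩ := hline d
    rw [hc, mem_O.1 ((O Q).inv_mem hgO), hT.sing_smul hu]
  obtain ⟨z, w, e, he, hmove⟩ := exists_T_move hq hK hu hu₁s hu0 hu₁0
  have hm : res F (T q z w) ∈ H := h.T_mem hp z w
  have hN := h.stab hp hK hu hu0 hthin (H.mul_mem hm (H.inv_mem hg)) (by
    intro c
    obtain ⟨d, hd⟩ := hline' c
    refine ⟨d * e, ?_⟩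
    change T q z w (g⁻¹ (c • u)) = _
    rw [hd, map_smul, hmove, smul_smul])
  have e1 : g = (res F (T q z w) * g⁻¹)⁻¹ * res F (T q z w) := by group
  rw [e1]
  exact (NK F K V).mul_mem ((NK F K V).inv_mem hN) (res_mem_NK _)

end Cfsg.Agent.H923.KF
end
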