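import Mathlib
import Cfsg.Agent.H923.NotThin
import Cfsg.Agent.H925.ExtGeo
import Cfsg.Agent.H922.TenForms
set_option linter.all false

-- part: H923/Three
section
/-!
The case of characteristic three and degree three: the trace lemma with nontrivial intersections.
-/

set_option autoImplicit false
set_option linter.unusedSectionVars false

namespace Cfsg.Agent.H923

open scoped Classical in
/-- **The trace lemma**, the general version: the group `E` may meet the conjugates of `M`. -/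
theorem green2 {G X : Type*} [Group G] [Finite G] [AddCommGroup X] [Finite X] {p : ℕ}
    [Fact p.Prime] (ρ : G →* AddMonoid.End X) (M E : Subgroup G)
    (hE : IsPGroup p E) (hp : ∀ x : X, p • x = 0) (hEM : E ≤ M)
    (hC : ∀ a : G, a ∉ M → ∃ C : Finset G, (∀ c ∈ C, c ∈ E) ∧
      (∀ c ∈ C, ∀ c' ∈ C, (c * a)⁻¹ * (c' * a) ∈ M → c = c') ∧
      (∀ y ∈ E, ∃ c ∈ C, (y * a)⁻¹ * (c * a) ∈ M) ∧
      ∀ x : X, (∀ d ∈ E, a⁻¹ * d * a ∈ M → ρ d x = x) → ∑ c ∈ C, ρ c x = 0)
    (π : X →+ X) (hπ : ∀ x, π (π x) = π x) (hπM : ∀ m ∈ M, ∀ x, π (ρ m x) = ρ m (π x))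
    (h2 : ∀ x, π x ∈ AddSubgroup.closure
      {z | ∃ m ∈ M, ∃ x, π x = x ∧ (∀ y ∈ E, ρ y x = x) ∧ z = ρ m x})
    (g : G) (x : X) : π (ρ g (π x)) = ρ g (π x) := by
  have := Fintype.ofFinite (G ⧸ M)
  have hmul : ∀ (a b : G) (x : X), ρ (a * b) x = ρ a (ρ b x) := by
    intro a b x
    rw [map_mul]
    rfl
  have hone : ∀ x : X, ρ 1 x = x := by
    intro x
    rw [map_one]
    rfl
  have hinv : ∀ (a : G) (x : X), ρ a (ρ a⁻¹ x) = x := by
    intro a x
    rw [← hmul, mul_inv_cancel, hone]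
  have hinv' : ∀ (a : G) (x : X), ρ a⁻¹ (ρ a x) = x := by
    intro a x
    rw [← hmul, inv_mul_cancel, hone]
  -- the summand
  let φ : X → G ⧸ M → X := fun x => Quotient.lift (fun a : G => ρ a (π (ρ a⁻¹ x))) (by
    intro a b hab
    have h : a⁻¹ * b ∈ M := QuotientGroup.leftRel_apply.1 hab
    change ρ a (π (ρ a⁻¹ x)) = ρ b (π (ρ b⁻¹ x))
    have e1 : b = a * (a⁻¹ * b) := by group
    have e2 : b⁻¹ = (a⁻¹ * b)⁻¹ * a⁻¹ := by group
    rw [e2, hmul, hπM _ (M.inv_mem h), ← hmul]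
    congr 1
    rw [mul_inv_rev, inv_inv, ← mul_assoc, mul_inv_cancel, one_mul])
  have hφ : ∀ (x : X) (a : G), φ x (a : G ⧸ M) = ρ a (π (ρ a⁻¹ x)) := fun _ _ => rfl
  have hφs : ∀ (h : G) (x : X) (c : G ⧸ M), φ (ρ h x) (h • c) = ρ h (φ x c) := by
    intro h x c
    obtain ⟨a, rfl⟩ := QuotientGroup.mk_surjective c
    have e1 : h • ((a : G) : G ⧸ M) = ((h * a : G) : G ⧸ M) := rfl
    rw [e1, hφ, hφ, ← hmul, mul_inv_rev, inv_mul_cancel_right, hmul h a]
  have hφadd : ∀ (x x' : X) (c : G ⧸ M), φ (x + x') c = φ x c + φ x' c := by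
    intro x x' c
    obtain ⟨a, rfl⟩ := QuotientGroup.mk_surjective c
    simp only [hφ, map_add]
  -- the trace
  let T : X →+ X :=
    { toFun := fun x => ∑ c : G ⧸ M, φ x c
      map_zero' := by
        apply Finset.sum_eq_zero
        intro c _
        obtain ⟨a, rfl⟩ := QuotientGroup.mk_surjective c
        simp only [hφ, map_zero]
      map_add' := fun x x' => by
        rw [← Finset.sum_add_distrib]
        exact Finset.sum_congr rfl fun c _ => hφadd x x' c }
  have hT : ∀ x, T x = ∑ c : G ⧸ M, φ x c := fun _ => rfl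
  have hTg : ∀ (h : G) (x : X), T (ρ h x) = ρ h (T x) := by
    intro h x
    rw [hT, hT, map_sum, ← Equiv.sum_comp (MulAction.toPerm h)]
    exact Finset.sum_congr rfl fun c _ => hφs h x c
  -- on `E`-fixed vectors the trace is `π`
  have hTfix : ∀ x : X, (∀ y ∈ E, ρ y x = x) → T x = π x := by
    intro x hx
    have hinvφ : ∀ y ∈ E, ∀ c : G ⧸ M, φ x (y • c) = ρ y (φ x c) := by
      intro y hy c
      rw [← hφs y x c, hx y hy]
    rw [hT, ← Finset.add_sum_erase Finset.univ _ (Finset.mem_univ ((1 : G) : G ⧸ M))]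
    have e1 : φ x ((1 : G) : G ⧸ M) = π x := by
      rw [hφ, inv_one, hone, hone]
    rw [e1]
    have e2 : ∑ c ∈ Finset.univ.erase ((1 : G) : G ⧸ M), φ x c = 0 := by
      -- sum over the orbits of `E`
      rw [← Finset.sum_fiberwise_of_maps_to (s := Finset.univ.erase ((1 : G) : G ⧸ M))
        (t := Finset.univ) (g := fun c => (Quotient.mk (MulAction.orbitRel E (G ⧸ M)) c))
        (fun _ _ => Finset.mem_univ _)]
      apply Finset.sum_eq_zero
      intro o _
      obtain ⟨c₀, rfl⟩ := Quotient.exists_rep o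
      by_cases hc₀ : c₀ = ((1 : G) : G ⧸ M)
      · -- the orbit of the base point is the base point
        apply Finset.sum_eq_zero
        intro c hc
        exfalso
        rw [Finset.mem_filter, Finset.mem_erase] at hc
        obtain ⟨⟨hc1, -⟩, hc2⟩ := hc
        have h3 : c ∈ MulAction.orbit E c₀ := Quotient.exact hc2
        obtain ⟨y, rfl⟩ := h3
        apply hc1
        subst hc₀
        change ((((y : G) * 1 : G)) : G ⧸ M) = _
        rw [QuotientGroup.eq, mul_one, mul_one]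
        exact M.inv_mem (hEM y.2)
      · obtain ⟨a, rfl⟩ := QuotientGroup.mk_surjective c₀
        have ha : a ∉ M := by
          intro ha
          apply hc₀
          rw [QuotientGroup.eq, mul_one]
          exact M.inv_mem ha
        obtain ⟨C, hCE, hCi, hCs, hC0⟩ := hC a ha
        have hset : (Finset.univ.erase ((1 : G) : G ⧸ M)).filter
            (fun c => (Quotient.mk (MulAction.orbitRel E (G ⧸ M)) c) =
              Quotient.mk (MulAction.orbitRel E (G ⧸ M)) ((a : G) : G ⧸ M)) =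
            C.image (fun y : G => y • ((a : G) : G ⧸ M)) := by
          ext c
          rw [Finset.mem_filter, Finset.mem_erase, Finset.mem_image]
          constructor
          · rintro ⟨-, hc2⟩
            have h3 : c ∈ MulAction.orbit E ((a : G) : G ⧸ M) := Quotient.exact hc2
            obtain ⟨y, rfl⟩ := h3
            obtain ⟨c', hc', hyc⟩ := hCs y y.2
            refine ⟨c', hc', ?_⟩
            change (((c' * a : G)) : G ⧸ M) = ((((y : G) * a : G)) : G ⧸ M)
            rw [QuotientGroup.eq]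
            have e5 : (c' * a)⁻¹ * ((y : G) * a) = (((y : G) * a)⁻¹ * (c' * a))⁻¹ := by group
            rw [e5]
            exact M.inv_mem hyc
          · rintro ⟨y, hyC, rfl⟩
            refine ⟨⟨?_, Finset.mem_univ _⟩, Quotient.sound ⟨⟨y, hCE y hyC⟩, rfl⟩⟩
            intro h3
            apply hc₀
            have h4 : ((a : G) : G ⧸ M) = (y⁻¹) • ((1 : G) : G ⧸ M) := by
              rw [← h3, inv_smul_smul]
            rw [h4]
            change (((y⁻¹ * 1 : G)) : G ⧸ M) = _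
            rw [QuotientGroup.eq, mul_one, mul_one, inv_inv]
            exact hEM (hCE y hyC)
        rw [hset, Finset.sum_image]
        · rw [Finset.sum_congr rfl fun y hy => hinvφ y (hCE y hy) ((a : G) : G ⧸ M)]
          apply hC0
          intro d hd hda
          rw [← hinvφ d hd]
          congr 1
          change (((d * a : G)) : G ⧸ M) = _
          rw [QuotientGroup.eq]
          have e5 : (d * a)⁻¹ * a = (a⁻¹ * d * a)⁻¹ := by group
          rw [e5]
          exact M.inv_mem hda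
        · intro y hy y' hy' hyy
          have h3 : (((y * a : G)) : G ⧸ M) = ((y' * a : G) : G ⧸ M) := hyy
          rw [QuotientGroup.eq] at h3
          exact hCi y hy y' hy' h3
    rw [e2, add_zero]
  -- the trace is the identity on the `G`-submodule generated by `π X`
  have hTπ : ∀ x, T (π x) = π x := by
    intro x
    have key : AddSubgroup.closure
        {z | ∃ m ∈ M, ∃ x, π x = x ∧ (∀ y ∈ E, ρ y x = x) ∧ z = ρ m x} ≤
        (T - AddMonoidHom.id X).ker := by
      rw [AddSubgroup.closure_le]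
      rintro _ ⟨m, hm, x, hx, hxE, rfl⟩
      rw [SetLike.mem_coe, AddMonoidHom.mem_ker, AddMonoidHom.sub_apply, AddMonoidHom.id_apply,
        hTg, hTfix x hxE, hx, sub_self]
    have h3 := key (h2 x)
    rwa [AddMonoidHom.mem_ker, AddMonoidHom.sub_apply, AddMonoidHom.id_apply, sub_eq_zero] at h3
  let Y : AddSubgroup X := AddSubgroup.closure {z | ∃ (g : G) (x : X), z = ρ g (π x)}
  have hYT : ∀ y ∈ Y, T y = y := by
    have key : Y ≤ (T - AddMonoidHom.id X).ker := by
      rw [AddSubgroup.closure_le]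
      rintro _ ⟨g, x, rfl⟩
      rw [SetLike.mem_coe, AddMonoidHom.mem_ker, AddMonoidHom.sub_apply, AddMonoidHom.id_apply,
        hTg, hTπ, sub_self]
    intro y hy
    have h3 := key hy
    rwa [AddMonoidHom.mem_ker, AddMonoidHom.sub_apply, AddMonoidHom.id_apply, sub_eq_zero] at h3
  have hYρ : ∀ (g : G), ∀ y ∈ Y, ρ g y ∈ Y := by
    intro g y hy
    have key : Y ≤ Y.comap (ρ g : X →+ X) := by
      rw [AddSubgroup.closure_le]
      rintro _ ⟨g', x, rfl⟩
      change ρ g (ρ g' (π x)) ∈ Y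
      rw [← hmul]
      exact AddSubgroup.subset_closure ⟨_, _, rfl⟩
    exact key hy
  -- the part killed by `π`
  have hker : ∀ y ∈ Y, π y = 0 → y = 0 := by
    by_contra hcon
    push Not at hcon
    obtain ⟨y₀, hy₀, hπy₀, hne⟩ := hcon
    let Z : AddSubgroup X := Y ⊓ π.ker
    have hZE : ∀ y ∈ E, ∀ z ∈ Z, ρ y z ∈ Z := by
      rintro y hy z ⟨hz1, hz2⟩
      refine ⟨hYρ y z hz1, ?_⟩
      have hz2' : π z = 0 := hz2
      change π (ρ y z) = 0
      rw [hπM y (hEM hy), hz2', map_zero]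
    letI : MulAction E Z :=
      { smul := fun y z => ⟨ρ (y : G) (z : X), hZE y y.2 z z.2⟩
        one_smul := fun z => Subtype.ext (hone z)
        mul_smul := fun a b z => Subtype.ext (hmul a b z) }
    have hcard : p ∣ Nat.card Z := by
      have hZne : (⟨y₀, hy₀, hπy₀⟩ : Z) ≠ 0 := fun h => hne (congrArg Subtype.val h)
      have h3 : addOrderOf (⟨y₀, hy₀, hπy₀⟩ : Z) = p := by
        apply addOrderOf_eq_prime _ hZne
        apply Subtype.ext
        exact hp y₀
      rw [← h3]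
      exact addOrderOf_dvd_natCard _
    obtain ⟨z, hz, hz0⟩ := hE.exists_fixed_point_of_prime_dvd_card_of_fixed_point Z hcard
      (a := 0) (by
        intro y
        apply Subtype.ext
        exact map_zero (ρ (y : G)))
    have hzfix : ∀ y ∈ E, ρ y (z : X) = z := fun y hy => congrArg Subtype.val (hz ⟨y, hy⟩)
    have h3 := hTfix z hzfix
    rw [hYT z z.2.1] at h3
    have h4 : π (z : X) = 0 := z.2.2
    rw [h4] at h3
    exact hz0 (Subtype.ext h3.symm)
  have hgx : ρ g (π x) ∈ Y := AddSubgroup.subset_closure ⟨g, x, rfl⟩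
  have hπY : ∀ x, π x ∈ Y := fun x => AddSubgroup.subset_closure ⟨1, x, (hone _).symm⟩
  have h3 := hker (ρ g (π x) - π (ρ g (π x))) (Y.sub_mem hgx (hπY _)) (by rw [map_sub, hπ, sub_self])
  exact (sub_eq_zero.1 h3).symm


/-- The general trace lemma, with plain functions. -/
theorem green2_fun {G X : Type*} [Group G] [Finite G] [AddCommGroup X] [Finite X] {p : ℕ}
    [Fact p.Prime] (ρ : G → X → X) (hadd : ∀ g x y, ρ g (x + y) = ρ g x + ρ g y)
    (hone : ∀ x, ρ 1 x = x) (hmul : ∀ g h x, ρ (g * h) x = ρ g (ρ h x))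
    (M E : Subgroup G)
    (hE : IsPGroup p E) (hp : ∀ x : X, p • x = 0) (hEM : E ≤ M)
    (hC : ∀ a : G, a ∉ M → ∃ C : Finset G, (∀ c ∈ C, c ∈ E) ∧
      (∀ c ∈ C, ∀ c' ∈ C, (c * a)⁻¹ * (c' * a) ∈ M → c = c') ∧
      (∀ y ∈ E, ∃ c ∈ C, (y * a)⁻¹ * (c * a) ∈ M) ∧
      ∀ x : X, (∀ d ∈ E, a⁻¹ * d * a ∈ M → ρ d x = x) → ∑ c ∈ C, ρ c x = 0)
    (π : X → X) (hπadd : ∀ x y, π (x + y) = π x + π y) (hπ : ∀ x, π (π x) = π x)
    (hπM : ∀ m ∈ M, ∀ x, π (ρ m x) = ρ m (π x))
    (h2 : ∀ S : AddSubgroup X, (∀ m ∈ M, ∀ x, π x = x → (∀ y ∈ E, ρ y x = x) → ρ m x ∈ S) →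
      ∀ x, π x ∈ S)
    (g : G) (x : X) : π (ρ g (π x)) = ρ g (π x) := by
  let ρ' : G →* AddMonoid.End X :=
    { toFun := fun g => AddMonoidHom.mk' (ρ g) (hadd g)
      map_one' := by ext x; exact hone x
      map_mul' := fun g h => by ext x; exact hmul g h x }
  let π' : X →+ X := AddMonoidHom.mk' π hπadd
  refine green2 ρ' M E hE hp hEM hC π' hπ hπM ?_ g x
  refine h2 _ ?_
  intro m hm x hx1 hx2
  exact AddSubgroup.subset_closure ⟨m, hm, x, hx1, hx2, rfl⟩

end Cfsg.Agent.H923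

namespace Cfsg.Agent.H923.KF

open QuadraticMap Module Cfsg.Agent.LieClassical.OrthCore Cfsg.Agent.LieClassical.OrthTrans
  Cfsg.Agent.LieClassical.OrthSimple Cfsg.Agent.ClassicalGeometry.OrthAutBasic
open scoped commutatorElement

/-- The general trace lemma for bilinear forms. -/
theorem green2_BF {G F V : Type*} [Field F] [AddCommGroup V] [Module F V] [Group G] [Finite G]
    [Finite (BF F V)] {p : ℕ} [Fact p.Prime] (ρ : G → BF F V → BF F V)
    (hadd : ∀ g x y, ρ g (x + y) = ρ g x + ρ g y)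
    (hone : ∀ x, ρ 1 x = x) (hmul : ∀ g h x, ρ (g * h) x = ρ g (ρ h x))
    (M E : Subgroup G)
    (hE : IsPGroup p E) (hp : ∀ x : BF F V, p • x = 0) (hEM : E ≤ M)
    (hC : ∀ a : G, a ∉ M → ∃ C : Finset G, (∀ c ∈ C, c ∈ E) ∧
      (∀ c ∈ C, ∀ c' ∈ C, (c * a)⁻¹ * (c' * a) ∈ M → c = c') ∧
      (∀ y ∈ E, ∃ c ∈ C, (y * a)⁻¹ * (c * a) ∈ M) ∧
      ∀ x : BF F V, (∀ d ∈ E, a⁻¹ * d * a ∈ M → ρ d x = x) → ∑ c ∈ C, ρ c x = 0)
    (π : BF F V → BF F V) (hπadd : ∀ x y, π (x + y) = π x + π y) (hπ : ∀ x, π (π x) = π x)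
    (hπM : ∀ m ∈ M, ∀ x, π (ρ m x) = ρ m (π x))
    (h2 : ∀ S : AddSubgroup (BF F V),
      (∀ m ∈ M, ∀ x, π x = x → (∀ y ∈ E, ρ y x = x) → ρ m x ∈ S) → ∀ x, π x ∈ S)
    (g : G) (x : BF F V) : π (ρ g (π x)) = ρ g (π x) :=
  green2_fun ρ hadd hone hmul M E hE hp hEM hC π hπadd hπ hπM h2 g x

variable {F K V : Type*} [Field F] [Field K] [Algebra F K] [AddCommGroup V] [Module F V]
  [Module K V] [IsScalarTower F K V] {q : QuadraticForm K V} {Q : QuadraticForm F V}
  {H : Subgroup (V ≃ₗ[F] V)} [Finite K] [FiniteDimensional F V]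

/-- If a conjugate of a `K`-Siegel map is `K`-linear then the conjugating element normalises `K`. -/
theorem Over.star_lin (h : Over q Q H) {p : ℕ} [Fact p.Prime] [CharP F p] (hp : p ≠ 2)
    (hK : 3 ≤ finrank K V)
    {u : V} (hu : q u = 0) (hu0 : u ≠ 0) (hthin : Thin q H u) {x : V} (hx : polar q u x = 0)
    (hqx : q x ≠ 0) {g : V ≃ₗ[F] V} (hg : g ∈ H)
    (hlin : ∀ (c : K) (v : V), (g⁻¹ * res F (T q u x) * g) (c • v) =
      c • (g⁻¹ * res F (T q u x) * g) v) :
    g ∈ NK F K V := by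
  have hT := h.tr
  have hq := h.nondeg
  have hgO := h.leO hg
  have : CharP K p := charP_of_injective_algebraMap (algebraMap F K).injective p
  have h2 : (2 : K) ≠ 0 := CharP.cast_ne_zero_of_ne_of_prime K Nat.prime_two hp
  obtain ⟨u', hyp⟩ := exists_hyp hq hu hu0
  have hgg : ∀ v : V, g (g⁻¹ v) = v := fun v => g.apply_symm_apply v
  have hgg' : ∀ v : V, g⁻¹ (g v) = v := fun v => g.symm_apply_apply v
  set y : V ≃ₗ[F] V := g⁻¹ * res F (T q u x) * g with hy
  have hya : ∀ v, y v = g⁻¹ (T q u x (g v)) := fun _ => rfl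
  have hysq : ∀ v, y (y v - v) - (y v - v) = g⁻¹ ((-(2 * q x * polar q u (g v))) • u) := by
    intro v
    have e1 : y v - v = g⁻¹ (T q u x (g v) - g v) := by rw [hya, map_sub, hgg']
    rw [e1, hya, hgg, ← map_sub, T_sub_sq hu hx]
  set u₁ : V := g⁻¹ u with hu₁
  have hu₁0 : u₁ ≠ 0 := by
    intro h0
    apply hu0
    rw [← hgg u, ← hu₁, h0, map_zero]
  have hτc : ∀ (c : K) (v : V), y (c • v) = c • y v := hlin
  -- the image of the square
  set v₁ : V := (-(2 * q x))⁻¹ • u' with hv₁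
  have hv₁u : -(2 * q x * polar q u v₁) = 1 := by
    rw [hv₁, polar_smul_right, hyp.pair, smul_eq_mul, mul_one]
    have : (2 * q x) ≠ 0 := mul_ne_zero h2 hqx
    field_simp
  have hline : ∀ d : K, ∃ c : K, d • u₁ = g⁻¹ (c • u) := by
    intro d
    have h4 := hysq (d • g⁻¹ v₁)
    refine ⟨_, Eq.trans ?_ h4⟩
    have h5 := hysq (g⁻¹ v₁)
    rw [hgg, hv₁u, one_smul] at h5
    rw [← hu₁] at h5
    rw [hτc, ← smul_sub, hτc, ← smul_sub, h5]
  have hline' : ∀ c : K, ∃ d : K, g⁻¹ (c • u) = d • u₁ := by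
    choose t ht using hline
    have hinj : Function.Injective t := by
      intro a b hab
      have h4 : a • u₁ = b • u₁ := by rw [ht, ht, hab]
      rw [← sub_eq_zero, ← sub_smul] at h4
      exact sub_eq_zero.1 ((smul_eq_zero.1 h4).resolve_right hu₁0)
    intro c
    obtain ⟨d, hd⟩ := (Finite.injective_iff_surjective.1 hinj) c
    exact ⟨d, by rw [ht, hd]⟩
  have hu₁s : q u₁ = 0 := by
    apply hT.sing h2
    intro d
    obtain ⟨c, hc⟩ := hline d
    rw [hc, mem_O.1 ((O Q).inv_mem hgO), hT.sing_smul hu]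
  obtain ⟨z, w, e, he, hmove⟩ := exists_T_move hq hK hu hu₁s hu0 hu₁0
  have hm : res F (T q z w) ∈ H := h.T_mem hp z w
  have hN := h.stab hp hK hu hu0 hthin (H.mul_mem hm (H.inv_mem hg)) (by
    intro c
    obtain ⟨d, hd⟩ := hline' c
    refine ⟨d * e, ?_⟩
    change T q z w (g⁻¹ (c • u)) = _
    rw [hd, map_smul, hmove, smul_smul])
  have e1 : g = (res F (T q z w) * g⁻¹)⁻¹ * res F (T q z w) := by group
  rw [e1]
  exact (NK F K V).mul_mem ((NK F K V).inv_mem hN) (res_mem_NK _)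


end Cfsg.Agent.H923.KF
end

-- part: H923/ThreeSum
section
/-!
The case of characteristic three and degree three: sums over complements.
-/

set_option autoImplicit false
set_option linter.unusedSectionVars false

namespace Cfsg.Agent.H923.KF

open QuadraticMap Module Cfsg.Agent.LieClassical.OrthCore Cfsg.Agent.LieClassical.OrthTrans
  Cfsg.Agent.LieClassical.OrthSimple Cfsg.Agent.ClassicalGeometry.OrthAutBasic
open scoped commutatorElement

theorem PolyV.sum_eq_zero {F₀ σ X : Type*} [Field F₀] [AddCommGroup X] [Module F₀ X] [Fintype F₀]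
    [Fintype σ] [DecidableEq σ] {d : ℕ} {f : (σ → F₀) → X} (hf : PolyV d f)
    (hd : d < (Fintype.card F₀ - 1) * Fintype.card σ) : ∑ x, f x = 0 := by
  rw [← Module.forall_dual_apply_eq_zero_iff F₀]
  intro φ
  rw [map_sum]
  exact (hf φ).sum_eq_zero hd

section SumT

variable {F K V : Type*} [Field F] [Field K] [Algebra F K] [AddCommGroup V] [Module F V]
  [Module K V] [IsScalarTower F K V] {q : QuadraticForm K V}

/-- Sums over transvection groups, for bilinear forms vanishing on `K u`, over a subfield. -/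
theorem sum_T_eq_zero' {F₀ : Type*} [Field F₀] [Algebra F₀ K] [Algebra F₀ F] [Module F₀ V]
    [IsScalarTower F₀ K V] [IsScalarTower F₀ F V] [Fintype F₀] [FiniteDimensional F₀ V]
    [FiniteDimensional F₀ K]
    (h2 : (2 : K) ≠ 0) {A : Type*}
    [AddCommGroup A] [Module F₀ A] [FiniteDimensional F₀ A] [Fintype A]
    (hA : 3 < (Fintype.card F₀ - 1) * finrank F₀ A) {u : V} (hu : q u = 0)
    (θ : A →ₗ[F₀] V) (hθ : ∀ a, polar q u (θ a) = 0) (B : BF F V)
    (hB : ∀ c d : K, B (c • u) (d • u) = 0) (v w : V) :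
    ∑ a : A, B (T q u (θ a) v) (T q u (θ a) w) = 0 := by
  classical
  let b := Module.finBasis F₀ A
  let e : A ≃ₗ[F₀] (Fin (finrank F₀ A) → F₀) := b.equivFun
  have h1 : ∑ a : A, B (T q u (θ a) v) (T q u (θ a) w) =
      ∑ x : Fin (finrank F₀ A) → F₀, B (T q u (θ (e.symm x)) v) (T q u (θ (e.symm x)) w) :=
    (Fintype.sum_equiv e.symm.toEquiv _ _ fun x => rfl).symm
  rw [h1]
  let L : (Fin (finrank F₀ A) → F₀) →ₗ[F₀] V := θ.comp e.symm.toLinearMap
  have hL : ∀ x, L x = θ (e.symm x) := fun x => rfl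
  let P : V →ₗ[F₀] V →ₗ[F₀] K := LinearMap.mk₂ F₀ (fun v w => polar q v w)
    (fun a b c => polar_add_left q a b c)
    (fun r a c => by
      rw [← algebraMap_smul K r a, polar_smul_left, smul_eq_mul, Algebra.smul_def r])
    (fun a b c => polar_add_right q a b c)
    (fun r a c => by
      rw [← algebraMap_smul K r c, polar_smul_right, smul_eq_mul, Algebra.smul_def r])
  have hP : ∀ v w, P v w = polar q v w := fun v w => rfl
  let B' : V →ₗ[F₀] V →ₗ[F₀] F := LinearMap.mk₂ F₀ (fun v w => B v w)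
    (fun a b c => by rw [map_add, LinearMap.add_apply])
    (fun r a c => by
      rw [← algebraMap_smul F r a, map_smul, LinearMap.smul_apply, algebraMap_smul])
    (fun a b c => by rw [map_add])
    (fun r a c => by
      rw [← algebraMap_smul F r c, map_smul, algebraMap_smul])
  have hB' : ∀ v w, B' v w = B v w := fun v w => rfl
  let S : K →ₗ[F₀] V := (LinearMap.toSpanSingleton K V u).restrictScalars F₀
  have hS : ∀ c, S c = c • u := fun c => rfl
  have hLp : PolyV 1 (fun x : Fin (finrank F₀ A) → F₀ => L x) := PolyV.lin L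
  -- the two parts
  let f₁ : V → (Fin (finrank F₀ A) → F₀) → V := fun v x =>
    v + polar q u v • L x - polar q (L x) v • u
  let f₂ : V → (Fin (finrank F₀ A) → F₀) → V := fun v x =>
    (-((2 : K)⁻¹ * polar q (L x) (L x) * polar q u v)) • u
  have hf₁ : ∀ v, PolyV 1 (f₁ v) := by
    intro v
    refine PolyV.sub (PolyV.add (PolyV.const 1 v) ?_) ?_
    · exact hLp.map (Algebra.lsmul F₀ F₀ V (polar q u v))
    · exact hLp.map (S.comp (P.flip v))
  have hf₂ : ∀ v, PolyV 2 (f₂ v) := by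
    intro v
    have h4 : PolyV 2 (fun x : Fin (finrank F₀ A) → F₀ => P (L x) (L x)) := hLp.bilin hLp P
    refine (h4.map (S.comp (LinearMap.mulLeft F₀ (-((2 : K)⁻¹ * polar q u v))))).congr
      fun x => ?_
    rw [LinearMap.comp_apply, hS, hP, LinearMap.mulLeft_apply]
    change _ = (-((2 : K)⁻¹ * polar q (L x) (L x) * polar q u v)) • u
    congr 1
    ring
  have hT : ∀ (v : V) (x : Fin (finrank F₀ A) → F₀), T q u (θ (e.symm x)) v = f₁ v x + f₂ v x := by
    intro v x
    change _ = (v + polar q u v • L x - polar q (L x) v • u) +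
      (-((2 : K)⁻¹ * polar q (L x) (L x) * polar q u v)) • u
    rw [T_apply hu (hθ _), ← hL, polar_self', ← mul_assoc, inv_mul_cancel₀ h2, one_mul, neg_smul,
      sub_eq_add_neg]
  have key : PolyV 3 (fun x : Fin (finrank F₀ A) → F₀ =>
      B (T q u (θ (e.symm x)) v) (T q u (θ (e.symm x)) w)) := by
    have h3 : PolyV 3 (fun x : Fin (finrank F₀ A) → F₀ =>
        B' (f₁ v x) (f₁ w x) + B' (f₁ v x) (f₂ w x) + B' (f₂ v x) (f₁ w x)) :=
      (((hf₁ v).bilin (hf₁ w) B').mono (by norm_num) |>.add ((hf₁ v).bilin (hf₂ w) B')).add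
        ((hf₂ v).bilin (hf₁ w) B')
    refine h3.congr fun x => ?_
    have h5 : B (f₂ v x) (f₂ w x) = 0 := hB _ _
    have h6 : ∀ a b c d : V, B (a + b) (c + d) = B a c + B a d + B b c + B b d := by
      intro a b c d
      rw [map_add B a b, LinearMap.add_apply, map_add (B a) c d, map_add (B b) c d]
      ring
    rw [hT, hT, h6, h5, add_zero, hB', hB', hB']
  refine key.sum_eq_zero ?_
  rw [Fintype.card_fin]
  exact hA

/-- Bilinear forms invariant under a `K`-Siegel map vanish on `K u`. -/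
theorem BF_line_eq_zero [Finite K] (h2 : (2 : K) ≠ 0) {u u' x : V} (hyp : Hyp q u u') (hx : polar q u x = 0)
    (hqx : q x ≠ 0) (B : BF F V)
    (hB : ∀ v w, B (T q u x v) (T q u x w) = B v w) (c d : K) : B (c • u) (d • u) = 0 := by
  have hu := hyp.left
  set v : V := (-(2 * q x)⁻¹ * c) • u' with hv
  have h1 := T_sub_sq hu hx v
  have h3 : (-(2 * q x * polar q u v)) = c := by
    rw [hv, polar_smul_right, hyp.pair, smul_eq_mul, mul_one]
    have : (2 * q x) ≠ 0 := mul_ne_zero h2 hqx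
    field_simp
  rw [h3] at h1
  rw [← h1, map_sub, LinearMap.sub_apply, sub_eq_zero]
  conv_rhs => rw [← hB]
  rw [map_smul (T q u x) d u, T_apply_self hu hx]

end SumT

end Cfsg.Agent.H923.KF
end

-- part: H923/ThreeEnd
section
/-!
The case of characteristic three and degree three: thin overgroups normalise `K`.
-/

set_option autoImplicit false
set_option linter.unusedSectionVars false

namespace Cfsg.Agent.H923.KF

open QuadraticMap Module Cfsg.Agent.LieClassical.OrthCore Cfsg.Agent.LieClassical.OrthTrans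
  Cfsg.Agent.LieClassical.OrthSimple Cfsg.Agent.ClassicalGeometry.OrthAutBasic
open scoped commutatorElement

theorem order_three {G : Type*} [Group G] (hG : Nat.card G = 3) {a b : G} (ha : a ≠ 1)
    (hb : b ≠ 1) : a * b = 1 ∨ a = b := by
  classical
  by_contra hcon
  push Not at hcon
  obtain ⟨h1, h2⟩ := hcon
  have : Finite G := Nat.finite_of_card_ne_zero (by rw [hG]; norm_num)
  have := Fintype.ofFinite G
  have hs : ({1, a, b, a * b} : Finset G).card = 4 := by
    rw [Finset.card_insert_of_notMem, Finset.card_insert_of_notMem, Finset.card_insert_of_notMem,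
      Finset.card_singleton]
    · simp only [Finset.mem_singleton]
      intro h
      exact ha (mul_eq_right.1 h.symm)
    · simp only [Finset.mem_insert, Finset.mem_singleton]
      rintro (h | h)
      · exact h2 h
      · exact hb (mul_eq_left.1 h.symm)
    · simp only [Finset.mem_insert, Finset.mem_singleton]
      rintro (h | h | h)
      · exact ha h.symm
      · exact hb h.symm
      · exact h1 h.symm
  have h3 := Finset.card_le_univ ({1, a, b, a * b} : Finset G)
  rw [hs, ← Nat.card_eq_fintype_card, hG] at h3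
  omega

variable {F K V : Type*} [Field F] [Field K] [Algebra F K] [AddCommGroup V] [Module F V]
  [Module K V] [IsScalarTower F K V] {q : QuadraticForm K V} {Q : QuadraticForm F V}
  {H : Subgroup (V ≃ₗ[F] V)}

/-- The transversal. -/
theorem Over.exists_C [Fintype K] [FiniteDimensional F V] (h : Over q Q H) {p : ℕ}
    [Fact p.Prime] [CharP F p] (hp : p ≠ 2) {u : V} (hu : q u = 0) (hu0 : u ≠ 0)
    (θ : K →+ V) (hθ : ∀ a, polar q u (θ a) = 0) (hθq : ∀ a, a ≠ 0 → q (θ a) ≠ 0)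
    (a : ↥H) {A : Type*} [AddCommGroup A] [Fintype A] (ι : A →+ K)
    (hi : ∀ α, ((a⁻¹ * h.eps hp hu θ hθ (Multiplicative.ofAdd (ι α)) * a : ↥H) : V ≃ₗ[F] V) ∈
      NK F K V → α = 0)
    (hs : ∀ t : K, ∃ α, ((a⁻¹ * h.eps hp hu θ hθ (Multiplicative.ofAdd (t - ι α)) * a : ↥H) :
      V ≃ₗ[F] V) ∈ NK F K V)
    (h0 : ∀ B : BF F V, (∀ t, ((a⁻¹ * h.eps hp hu θ hθ (Multiplicative.ofAdd t) * a : ↥H) :
      V ≃ₗ[F] V) ∈ NK F K V → ∀ v w, B (T q u (θ t) v) (T q u (θ t) w) = B v w) →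
      ∀ v w, ∑ α : A, B (T q u (θ (ι α)) v) (T q u (θ (ι α)) w) = 0) :
    ∃ C : Finset ↥H, (∀ c ∈ C, c ∈ (h.eps hp hu θ hθ).range) ∧
      (∀ c ∈ C, ∀ c' ∈ C, (c * a)⁻¹ * (c' * a) ∈ (NK F K V).subgroupOf H → c = c') ∧
      (∀ y ∈ (h.eps hp hu θ hθ).range, ∃ c ∈ C, (y * a)⁻¹ * (c * a) ∈ (NK F K V).subgroupOf H) ∧
      ∀ x : BF F V, (∀ d ∈ (h.eps hp hu θ hθ).range, a⁻¹ * d * a ∈ (NK F K V).subgroupOf H →
        rhoB F V (d : V ≃ₗ[F] V) x = x) → ∑ c ∈ C, rhoB F V (c : V ≃ₗ[F] V) x = 0 := by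
  classical
  set ε := h.eps hp hu θ hθ with hεd
  have hε : ∀ (t : K) (v : V), ((ε (Multiplicative.ofAdd t) : ↥H) : V ≃ₗ[F] V) v = T q u (θ t) v :=
    fun _ _ => rfl
  have hεinv : ∀ t : K, (ε (Multiplicative.ofAdd t))⁻¹ = ε (Multiplicative.ofAdd (-t)) := by
    intro t
    rw [← map_inv]
    rfl
  have hεmul : ∀ t t' : K, ε (Multiplicative.ofAdd t) * ε (Multiplicative.ofAdd t') =
      ε (Multiplicative.ofAdd (t + t')) := by
    intro t t'
    rw [← map_mul]
    rfl
  have hinj : Function.Injective (fun α : A => ε (Multiplicative.ofAdd (ι α))) := by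
    intro α β hαβ
    have h1 : Multiplicative.ofAdd (ι α) = Multiplicative.ofAdd (ι β) :=
      h.eps_injective hp hu hu0 θ hθ hθq hαβ
    have h3 : ι α = ι β := h1
    have h4 : α - β = 0 := by
      apply hi
      rw [map_sub, h3, sub_self]
      have : ε (Multiplicative.ofAdd 0) = 1 := map_one ε
      rw [this, mul_one, inv_mul_cancel]
      exact (NK F K V).one_mem
    exact sub_eq_zero.1 h4
  refine ⟨Finset.univ.image (fun α : A => ε (Multiplicative.ofAdd (ι α))), ?_, ?_, ?_, ?_⟩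
  · intro c hc
    obtain ⟨α, -, rfl⟩ := Finset.mem_image.1 hc
    exact ⟨_, rfl⟩
  · intro c hc c' hc' hcc
    obtain ⟨α, -, rfl⟩ := Finset.mem_image.1 hc
    obtain ⟨β, -, rfl⟩ := Finset.mem_image.1 hc'
    have h1 : (ε (Multiplicative.ofAdd (ι α)) * a)⁻¹ * (ε (Multiplicative.ofAdd (ι β)) * a) =
        a⁻¹ * ε (Multiplicative.ofAdd (ι (-α + β))) * a := by
      rw [map_add, map_neg, ← hεmul, ← hεinv]
      group
    rw [h1] at hcc
    have h3 := hi (-α + β) hcc
    have h4 : β = α := by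
      have := neg_add_eq_zero.1 h3
      exact this.symm
    rw [h4]
  · rintro _ ⟨t, rfl⟩
    obtain ⟨α, hα⟩ := hs t.toAdd
    refine ⟨ε (Multiplicative.ofAdd (ι α)), Finset.mem_image_of_mem _ (Finset.mem_univ _), ?_⟩
    have h1 : (ε t * a)⁻¹ * (ε (Multiplicative.ofAdd (ι α)) * a) =
        (a⁻¹ * ε (Multiplicative.ofAdd (t.toAdd - ι α)) * a)⁻¹ := by
      rw [sub_eq_neg_add, ← hεmul, ← hεinv]
      change (ε t * a)⁻¹ * (ε (Multiplicative.ofAdd (ι α)) * a) =
        (a⁻¹ * ((ε (Multiplicative.ofAdd (ι α)))⁻¹ * ε t) * a)⁻¹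
      group
    rw [h1]
    exact ((NK F K V).subgroupOf H).inv_mem hα
  · intro B hB
    rw [Finset.sum_image fun α _ β _ hαβ => hinj hαβ]
    have hB' : ∀ t, ((a⁻¹ * ε (Multiplicative.ofAdd t) * a : ↥H) : V ≃ₗ[F] V) ∈ NK F K V →
        ∀ v w, B (T q u (θ t) v) (T q u (θ t) w) = B v w := by
      intro t ht v w
      have h1 := hB (ε (Multiplicative.ofAdd t)) ⟨_, rfl⟩ ht
      have h3 := LinearMap.congr_fun (LinearMap.congr_fun h1 (T q u (θ t) v)) (T q u (θ t) w)
      rw [rhoB_apply] at h3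
      have h4 : ∀ v, ((ε (Multiplicative.ofAdd t) : ↥H) : V ≃ₗ[F] V)⁻¹ (T q u (θ t) v) = v := by
        intro v
        rw [← hε]
        exact LinearEquiv.symm_apply_apply _ v
      rw [h4, h4] at h3
      exact h3.symm
    have h1 := h0 B hB'
    ext v w
    rw [LinearMap.sum_apply, LinearMap.sum_apply, LinearMap.zero_apply, LinearMap.zero_apply]
    rw [← h1 v w]
    have e2 : ∀ α : A, rhoB F V ((ε (Multiplicative.ofAdd (ι α)) : ↥H) : V ≃ₗ[F] V) B v w =
        B (T q u (θ (ι (-α))) v) (T q u (θ (ι (-α))) w) := by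
      intro α
      change B ((((ε (Multiplicative.ofAdd (ι α)))⁻¹ : ↥H) : V ≃ₗ[F] V) v)
        ((((ε (Multiplicative.ofAdd (ι α)))⁻¹ : ↥H) : V ≃ₗ[F] V) w) = _
      have e4 : ι (-α) = -ι α := map_neg ι α
      rw [hεinv, e4]
      rfl
    rw [Finset.sum_congr rfl fun α _ => e2 α]
    exact Fintype.sum_equiv (Equiv.neg A) _ _ fun a => rfl

/-- **Thin overgroups normalise `K`**, characteristic three and degree three. -/
theorem Over.le_NK_three [Finite K] [FiniteDimensional F V] (h : Over q Q H)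
    [CharP F 3] (hr : finrank F K = 3) (hK : 3 ≤ finrank K V)
    {u : V} (hu : q u = 0) (hu0 : u ≠ 0) (hthin : Thin q H u) : H ≤ NK F K V := by
  classical
  have := Fintype.ofFinite K
  have hp : 3 ≠ 2 := by norm_num
  have hfF : Finite F := finiteF F K
  have := Fintype.ofFinite F
  have hfK : FiniteDimensional F K := Module.Finite.of_finite
  have hfX : Finite (BF F V) := Module.finite_of_finite F
  have hfV : Finite V := Module.finite_of_finite F
  have hfE : Finite (V ≃ₗ[F] V) := Finite.of_injective (fun g => (g : V → V)) (by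
    intro a b hab
    ext v
    exact congrFun hab v)
  have hq := h.nondeg
  have h2 : (2 : F) ≠ 0 := CharP.cast_ne_zero_of_ne_of_prime F Nat.prime_two hp
  have hcK : CharP K 3 := charP_of_injective_algebraMap (algebraMap F K).injective 3
  have h2K : (2 : K) ≠ 0 := CharP.cast_ne_zero_of_ne_of_prime K Nat.prime_two hp
  obtain ⟨u', hyp⟩ := exists_hyp hq hu hu0
  obtain ⟨x₀, hx₀, hux₀⟩ := exists_nonsing_perp' hq hK hu hu0
  let θl : K →ₗ[F] V := (LinearMap.toSpanSingleton K V x₀).restrictScalars F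
  set θ : K →+ V := (θl : K →+ V) with hθd
  have hθv : ∀ t : K, θ t = t • x₀ := fun t => rfl
  have hθ : ∀ a, polar q u (θ a) = 0 := by
    intro a
    rw [hθv, polar_smul_right, hux₀, smul_zero]
  have hθq : ∀ a, a ≠ 0 → q (θ a) ≠ 0 := by
    intro a ha
    rw [hθv, QuadraticMap.map_smul]
    exact mul_ne_zero (mul_ne_zero ha ha) hx₀
  have hpX : ∀ B : BF F V, 3 • B = 0 := by
    intro B
    rw [← Nat.cast_smul_eq_nsmul F, CharP.cast_eq_zero, zero_smul]
  have hpA : ∀ a : K, 3 • a = 0 := by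
    intro a
    rw [← Nat.cast_smul_eq_nsmul K, CharP.cast_eq_zero, zero_smul]
  have hE : IsPGroup 3 (h.eps hp hu θ hθ).range := by
    rintro ⟨_, a, rfl⟩
    refine ⟨1, ?_⟩
    apply Subtype.ext
    change (h.eps hp hu θ hθ a) ^ 3 ^ 1 = 1
    rw [pow_one, ← map_pow]
    have : a ^ 3 = 1 := by
      change Multiplicative.ofAdd (3 • a.toAdd) = 1
      rw [hpA]
      rfl
    rw [this, map_one]
  have hEM : (h.eps hp hu θ hθ).range ≤ (NK F K V).subgroupOf H := by
    rintro _ ⟨a, rfl⟩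
    exact res_mem_NK _
  have hC : ∀ a : ↥H, a ∉ (NK F K V).subgroupOf H →
      ∃ C : Finset ↥H, (∀ c ∈ C, c ∈ (h.eps hp hu θ hθ).range) ∧
      (∀ c ∈ C, ∀ c' ∈ C, (c * a)⁻¹ * (c' * a) ∈ (NK F K V).subgroupOf H → c = c') ∧
      (∀ y ∈ (h.eps hp hu θ hθ).range, ∃ c ∈ C, (y * a)⁻¹ * (c * a) ∈ (NK F K V).subgroupOf H) ∧
      ∀ x : BF F V, (∀ d ∈ (h.eps hp hu θ hθ).range, a⁻¹ * d * a ∈ (NK F K V).subgroupOf H →
        rhoB F V (d : V ≃ₗ[F] V) x = x) → ∑ c ∈ C, rhoB F V (c : V ≃ₗ[F] V) x = 0 := by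
    intro a ha
    set y : K → (V ≃ₗ[F] V) := fun t =>
      ((a⁻¹ * h.eps hp hu θ hθ (Multiplicative.ofAdd t) * a : ↥H) : V ≃ₗ[F] V) with hy
    have hyadd : ∀ t t', y (t + t') = y t * y t' := by
      intro t t'
      have e1 : h.eps hp hu θ hθ (Multiplicative.ofAdd (t + t')) =
          h.eps hp hu θ hθ (Multiplicative.ofAdd t) *
            h.eps hp hu θ hθ (Multiplicative.ofAdd t') := by
        rw [← map_mul]
        rfl
      have e3 : a⁻¹ * h.eps hp hu θ hθ (Multiplicative.ofAdd (t + t')) * a =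
          (a⁻¹ * h.eps hp hu θ hθ (Multiplicative.ofAdd t) * a) *
            (a⁻¹ * h.eps hp hu θ hθ (Multiplicative.ofAdd t') * a) := by
        rw [e1]
        group
      exact congrArg Subtype.val e3
    have hy0 : y 0 = 1 := by
      have e1 := hyadd 0 0
      rw [add_zero] at e1
      exact (mul_eq_left.1 e1.symm)
    have hyneg : ∀ t, y (-t) = (y t)⁻¹ := by
      intro t
      rw [eq_inv_iff_mul_eq_one, ← hyadd, neg_add_cancel, hy0]
    have key1 : ∀ t, t ≠ 0 → ¬ ∀ (c : K) (v : V), y t (c • v) = c • y t v := by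
      intro t ht hlin
      apply ha
      exact h.star_lin hp hK hu hu0 hthin (hθ t) (hθq t ht) a.2 hlin
    have key2 : ∀ t t', t ≠ 0 → t' ≠ 0 → y t ∈ NK F K V → y t' ∈ NK F K V →
        t' = t ∨ t' = -t := by
      intro t t' ht ht' hyt hyt'
      obtain ⟨τ, hτ⟩ := hyt
      obtain ⟨τ', hτ'⟩ := hyt'
      have h1 : τ ≠ 1 := by
        intro h1
        apply key1 t ht
        intro c v
        rw [hτ, h1]
        rfl
      have h3 : τ' ≠ 1 := by
        intro h1
        apply key1 t' ht'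
        intro c v
        rw [hτ', h1]
        rfl
      have hcard : Nat.card (K ≃ₐ[F] K) = 3 := by
        rw [IsGalois.card_aut_eq_finrank, hr]
      rcases order_three hcard h1 h3 with h4 | h4
      · right
        by_contra hne
        apply key1 (t + t') (fun h0 => hne (eq_neg_of_add_eq_zero_right h0))
        intro c v
        have e1 : y (t + t') (c • v) = τ (τ' c) • y (t + t') v := by
          rw [hyadd]
          change y t (y t' (c • v)) = _ • y t (y t' v)
          rw [hτ', hτ]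
        rw [e1]
        have e3 : τ (τ' c) = (τ * τ') c := rfl
        rw [e3, h4]
        rfl
      · left
        by_contra hne
        apply key1 (-t + t') (fun h0 => hne (neg_add_eq_zero.1 h0).symm)
        intro c v
        have e1 : y (-t + t') (c • v) = (τ.symm (τ' c)) • y (-t + t') v := by
          rw [hyadd, hyneg]
          apply (y t).injective
          change y t ((y t)⁻¹ (y t' (c • v))) = y t (τ.symm (τ' c) • (y t)⁻¹ (y t' v))
          have e4 : ∀ z, y t ((y t)⁻¹ z) = z := fun z => (y t).apply_symm_apply z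
          rw [e4, hτ, e4, hτ', AlgEquiv.apply_symm_apply]
        rw [e1, ← h4, AlgEquiv.symm_apply_apply]
    by_cases hD : ∃ t₀, t₀ ≠ 0 ∧ y t₀ ∈ NK F K V
    · obtain ⟨t₀, ht₀, hyt₀⟩ := hD
      let algZF : Algebra (ZMod 3) F := ZMod.algebra F 3
      let algZK : Algebra (ZMod 3) K := ZMod.algebra K 3
      let modZV : Module (ZMod 3) V := Module.compHom V (algebraMap (ZMod 3) K)
      have tZFK : IsScalarTower (ZMod 3) F K := IsScalarTower.of_algebraMap_eq' (RingHom.ext_zmod _ _)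
      have tZKV : IsScalarTower (ZMod 3) K V := ⟨fun a b c => by
        rw [Algebra.smul_def, mul_smul]
        rfl⟩
      have tZFV : IsScalarTower (ZMod 3) F V := ⟨fun a b c => by
        have e1 : a • (b • c) = algebraMap (ZMod 3) K a • (b • c) := rfl
        rw [e1, Algebra.smul_def, mul_smul, ← algebraMap_smul K (algebraMap (ZMod 3) F a) (b • c),
          ← IsScalarTower.algebraMap_apply]⟩
      have hfZV : FiniteDimensional (ZMod 3) V := Module.Finite.of_finite
      have hfZK : FiniteDimensional (ZMod 3) K := Module.Finite.of_finite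
      have hfZF : FiniteDimensional (ZMod 3) F := Module.Finite.of_finite
      obtain ⟨W, hW⟩ := Submodule.exists_isCompl (Submodule.span (ZMod 3) {t₀})
      have hspan : ∀ t ∈ Submodule.span (ZMod 3) {t₀}, y t ∈ NK F K V := by
        intro t ht
        obtain ⟨c, rfl⟩ := Submodule.mem_span_singleton.1 ht
        have hc : ∀ c : ZMod 3, c = 0 ∨ c = 1 ∨ c = -1 := by decide
        rcases hc c with rfl | rfl | rfl
        · rw [zero_smul, hy0]
          exact (NK F K V).one_mem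
        · rw [one_smul]
          exact hyt₀
        · rw [neg_smul, one_smul, hyneg]
          exact (NK F K V).inv_mem hyt₀
      have hspan' : ∀ t, y t ∈ NK F K V → t ∈ Submodule.span (ZMod 3) {t₀} := by
        intro t ht
        by_cases ht0 : t = 0
        · rw [ht0]
          exact Submodule.zero_mem _
        rcases key2 t₀ t ht₀ ht0 hyt₀ ht with rfl | rfl
        · exact Submodule.mem_span_singleton_self _
        · exact Submodule.neg_mem _ (Submodule.mem_span_singleton_self _)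
      have hrank : 2 ≤ finrank (ZMod 3) W := by
        have h1 := Submodule.finrank_add_eq_of_isCompl hW
        rw [finrank_span_singleton ht₀] at h1
        have h3 := Module.finrank_mul_finrank (ZMod 3) F K
        rw [hr] at h3
        have h4 : 0 < finrank (ZMod 3) F := Module.finrank_pos
        omega
      refine h.exists_C hp hu hu0 θ hθ hθq a (A := W) (W.subtype : W →+ K) ?_ ?_ ?_
      · intro α hα
        have h1 := hspan' _ hα
        have h3 : (α : K) ∈ Submodule.span (ZMod 3) {t₀} ⊓ W := ⟨h1, α.2⟩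
        rw [hW.inf_eq_bot] at h3
        exact Subtype.ext ((Submodule.mem_bot _).1 h3)
      · intro t
        have h1 : t ∈ Submodule.span (ZMod 3) {t₀} ⊔ W := by
          rw [hW.sup_eq_top]
          trivial
        obtain ⟨s, hs, w, hw, rfl⟩ := Submodule.mem_sup.1 h1
        refine ⟨⟨w, hw⟩, ?_⟩
        have e1 : s + w - (W.subtype : W →+ K) ⟨w, hw⟩ = s := by
          change s + w - w = s
          rw [add_sub_cancel_right]
        rw [e1]
        exact hspan s hs
      · intro B hB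
        have hB0 := BF_line_eq_zero h2K hyp (hθ t₀) (hθq t₀ ht₀) B (hB t₀ hyt₀)
        let θ' : W →ₗ[ZMod 3] V := (θ.comp (W.subtype : W →+ K)).toZModLinearMap 3
        exact sum_T_eq_zero' (F₀ := ZMod 3) h2K (A := W) (by
          rw [ZMod.card]
          omega) hu θ' (fun α => hθ _) B hB0
    · push Not at hD
      refine h.exists_C hp hu hu0 θ hθ hθq a (A := K) (AddMonoidHom.id K) ?_ ?_ ?_
      · intro α hα
        by_contra hne
        exact hD α hne hα
      · intro t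
        refine ⟨t, ?_⟩
        rw [AddMonoidHom.id_apply, sub_self]
        have : y 0 ∈ NK F K V := by
          rw [hy0]
          exact (NK F K V).one_mem
        exact this
      · intro B _
        refine sum_T_eq_zero (F := F) h2K ?_ hu θl hθ B
        have hcF : 3 ≤ Fintype.card F := by
          obtain ⟨n, hn⟩ := FiniteField.card F 3
          rw [hn.2]
          exact Nat.le_self_pow n.pos.ne' 3
        rw [hr]
        omega
  intro g hg
  apply mem_NK_of_preserves hq h2 (by omega : 2 ≤ finrank K V)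
  intro B
  refine green2_BF (G := ↥H) (fun g B => rhoB F V (g : V ≃ₗ[F] V) B)
    (fun g B B' => rhoB_add _ _ _) (fun B => ?_) (fun g g' B => ?_)
    ((NK F K V).subgroupOf H)
    (h.eps hp hu θ hθ).range hE hpX hEM hC (prB K) prB_add
    (prB_prB h2) (fun m hm B => prB_rho hm B) ?_ ⟨g⁻¹, H.inv_mem hg⟩ B
  · change rhoB F V (1 : V ≃ₗ[F] V) B = B
    rw [map_one]
    rfl
  · change rhoB F V ((g : V ≃ₗ[F] V) * (g' : V ≃ₗ[F] V)) B = _
    rw [map_mul]
    rfl
  · intro S hS B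
    refine h.gen hp hK hu hu0 θ hθ B S ?_
    intro m hm x hx1 hx2
    refine hS m hm x hx1 ?_
    rintro _ ⟨a, rfl⟩
    exact hx2 a

end Cfsg.Agent.H923.KF
end

-- part: H923/Wrap
section
/-!
Maximality of the normalisers of self-adjoint field subalgebras of odd prime degree in `Ω`.
-/

set_option autoImplicit false
set_option linter.unusedSectionVars false

namespace Cfsg.Agent.H923.Wrap

open QuadraticMap Cfsg.Geo Cfsg.Agent.LieClassical.OrthCore Cfsg.Agent.LieClassical.OrthTrans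
  Cfsg.Agent.LieClassical.OrthFinite Cfsg.Agent.H887.OmegaBridge Cfsg.Agent.H925.Ext
  Cfsg.Agent.H923.KF
open scoped MatrixGroups Matrix

universe u

variable {ι : Type} [Fintype ι] [DecidableEq ι] {F : Type u} [Field F]

/-- The degree of a field subalgebra divides the dimension. -/
theorem exists_mul_eq_card [Finite F] [Nonempty ι] {r : ℕ}
    {K : Subalgebra F (Matrix ι ι F)} (hK : IsFieldSubalgebra r K) :
    ∃ k : ℕ, k * r = Fintype.card ι := by
  let instK : Field K := (H912.isField_of_fieldSub hK).toField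
  have h1 := Module.finrank_mul_finrank F K (ι → F)
  rw [hK.finrank_eq, Module.finrank_fintype_fun_eq_card, mul_comm] at h1
  exact ⟨_, h1⟩

/-- **The transfer.**  `hmain` is the theorem on overgroups (the proof follows
`H925.Ext.isMaximalIn_of_main`). -/
theorem isMaximalIn_of_over [Finite F] {Q : (ι → F) → F} (hQ : IsNondegenerateQuadraticForm Q)
    (hn : 5 ≤ Fintype.card ι) (h2 : (2 : F) ≠ 0) {r : ℕ} (hr : r.Prime)
    {K : Subalgebra F (Matrix ι ι F)} (hK : IsFieldSubalgebra r K)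
    (hsa : IsSelfAdjointFor (polar Q) K)
    (hmain : ∀ (K' : Type u) [Field K'] [Algebra F K'] [Module K' (ι → F)]
      [IsScalarTower F K' (ι → F)] [Finite K']
      (q : QuadraticForm K' (ι → F)) (H : Subgroup ((ι → F) ≃ₗ[F] (ι → F))),
      Over q (H887.OmegaBridge.qf Q hQ) H → Module.finrank F K' = r →
        Module.finrank K' (ι → F) * r = Fintype.card ι → ¬ H ≤ NK F K' (ι → F) →
          E (H887.OmegaBridge.qf Q hQ) ≤ H) :
    IsMaximalIn (omegaGL Q) (subalgebraNormalizer K ⊓ omegaGL Q) := by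
  have : Nonempty ι := Fintype.card_pos_iff.1 (by omega)
  have hG : Good (H887.OmegaBridge.qf Q hQ) := good_of_finite (H887.OmegaBridge.nondeg_qf Q hQ)
    (by rwa [Module.finrank_fintype_fun_eq_card])
  obtain ⟨τ, hτ⟩ := H926.exists_tau K
  let instK : Field K := (H912.isField_of_fieldSub hK).toField
  have : Finite K := Module.finite_of_finite F
  have hf : IsBilinearForm (polar Q) := hQ.polar_bilinear
  let B : LinearMap.BilinForm K (ι → F) := LinearMap.mk₂ K (fun u v => H926.kForm hK hτ hf u v)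
    (fun u u' v => H926.kForm_unique hK hτ hf fun k => by
      rw [mul_add, map_add, H926.kForm_spec, H926.kForm_spec, Matrix.mulVec_add, hf.add_left])
    (fun c u v => H926.kForm_unique hK hτ hf fun k => by
      have h1 : k * c • H926.kForm hK hτ hf u v = (k * c) * H926.kForm hK hτ hf u v := by
        rw [smul_eq_mul, mul_assoc]
      rw [h1, H926.kForm_spec]
      show polar Q (((k : Matrix ι ι F) * (c : Matrix ι ι F)) *ᵥ u) v =
        polar Q ((k : Matrix ι ι F) *ᵥ ((c : Matrix ι ι F) *ᵥ u)) v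
      rw [Matrix.mulVec_mulVec])
    (fun u v v' => H926.kForm_unique hK hτ hf fun k => by
      rw [mul_add, map_add, H926.kForm_spec, H926.kForm_spec, hf.add_right])
    (fun c u v => H926.kForm_unique hK hτ hf fun k => by
      have h1 : k * c • H926.kForm hK hτ hf u v = (c * k) * H926.kForm hK hτ hf u v := by
        rw [smul_eq_mul, ← mul_assoc, mul_comm k c]
      rw [h1, H926.kForm_spec]
      show polar Q (((c : Matrix ι ι F) * (k : Matrix ι ι F)) *ᵥ u) v =
        polar Q ((k : Matrix ι ι F) *ᵥ u) ((c : Matrix ι ι F) *ᵥ v)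
      rw [← Matrix.mulVec_mulVec, hsa c c.2])
  have hB : ∀ (k : K) (u v : ι → F), τ (k * B u v) = polar Q ((k : Matrix ι ι F) *ᵥ u) v :=
    fun k u v => H926.kForm_spec hK hτ hf u v k
  have hB1 : ∀ (u v : ι → F), τ (B u v) = polar Q u v := by
    intro u v
    have := hB 1 u v
    rw [one_mul] at this
    rw [this]
    show polar Q ((1 : Matrix ι ι F) *ᵥ u) v = polar Q u v
    rw [Matrix.one_mulVec]
  have hBsymm : ∀ u v, B u v = B v u := by
    intro u v
    apply tau_ext' hτ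
    intro k
    rw [hB, hB, hsa k k.2, polar_comm]
  have h2K : (2 : K) ≠ 0 := by
    intro h0
    apply h2
    apply (algebraMap F K).injective
    rw [map_ofNat, map_zero]
    exact h0
  let QK : QuadraticForm K (ι → F) := (2 : K)⁻¹ • B.toQuadraticMap
  have hQK : ∀ v, QK v = (2 : K)⁻¹ * B v v := fun v => rfl
  have hpolar : ∀ u v, polar QK u v = B u v := by
    intro u v
    rw [QuadraticMap.polar, hQK, hQK, hQK, map_add, map_add, LinearMap.add_apply,
      LinearMap.add_apply, hBsymm v u]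
    field_simp
    ring
  have hTr : Tr τ QK (H887.OmegaBridge.qf Q hQ) := by
    refine ⟨hτ, fun v => ?_⟩
    rw [H887.OmegaBridge.qf_apply, hQK]
    have e1 : (2 : K)⁻¹ * B v v = (2 : F)⁻¹ • B v v := by
      rw [Algebra.smul_def, map_inv₀, map_ofNat]
    rw [e1, map_smul, hB1, smul_eq_mul]
    have h3 : polar (H887.OmegaBridge.qf Q hQ) v v = 2 * H887.OmegaBridge.qf Q hQ v := polar_self' v
    change polar Q v v = 2 * Q v at h3
    rw [h3, ← mul_assoc, inv_mul_cancel₀ h2, one_mul]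
  have hnd : Nondeg QK := by
    intro x hx
    apply H887.OmegaBridge.nondeg_qf Q hQ
    intro y
    change polar Q x y = 0
    rw [← hB1, ← hpolar, hx y, map_zero]
  have hdim : Module.finrank K (ι → F) * r = Fintype.card ι := by
    have h1 := Module.finrank_mul_finrank F K (ι → F)
    rw [hK.finrank_eq, Module.finrank_fintype_fun_eq_card, mul_comm] at h1
    exact h1
  obtain ⟨δ, hδ⟩ := exists_trace_rep τ
  let q : QuadraticForm K (ι → F) := δ • QK
  have hq : ∀ v, q v = δ * QK v := fun v => rfl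
  have hIs : IsTr q (H887.OmegaBridge.qf Q hQ) := by
    intro v
    rw [hTr.eq, hδ, hq]
  refine H887.OmegaBridge.isMaximalIn_omegaGL Q hQ hG (subalgebraNormalizer K) {g | NormK K g}
    mem_subalgebraNormalizer_iff' ?_ ?_
  · by_contra hcon
    push Not at hcon
    apply Cfsg.Agent.H925.omegaGL_not_le_subalgebraNormalizer hQ hn hr.two_le hK
    intro g hg
    rw [mem_subalgebraNormalizer_iff']
    exact hcon _ ((H887.OmegaBridge.mem_omegaGL_iff Q hQ hG g).1 hg)
  · have hN : ∀ g : (ι → F) ≃ₗ[F] (ι → F), g ∈ NK F K (ι → F) → NormK K g := by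
      rintro g ⟨τ', hτ'⟩ k
      refine ⟨τ'.symm k, fun x => ?_⟩
      apply g.injective
      have e1 : g (g⁻¹ (k • g x)) = k • g x := g.apply_symm_apply _
      rw [e1, hτ', AlgEquiv.apply_symm_apply]
    intro H hHE hSH hex
    refine hmain K q H ⟨hIs, hG, hHE, fun g hg hgN => hSH g hg (hN g hgN)⟩ hK.finrank_eq hdim ?_
    intro hcon
    obtain ⟨g, hg, hgN⟩ := hex
    exact hgN (hN g (hcon hg))

/-- **Self-adjoint field subalgebras of odd prime degree.** -/
theorem selfAdjoint_isMaximalIn_odd [Finite F] {Q : (ι → F) → F}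
    (hQ : IsNondegenerateQuadraticForm Q) (h2 : (2 : F) ≠ 0) {r : ℕ} (hr : r.Prime) (hr2 : r ≠ 2)
    (hn : 3 * r ≤ Fintype.card ι) (hex : ¬ (ringChar F = 3 ∧ r = 3 ∧ Fintype.card ι = 9))
    {K : Subalgebra F (Matrix ι ι F)} (hK : IsFieldSubalgebra r K)
    (hsa : IsSelfAdjointFor (polar Q) K) :
    IsMaximalIn (omegaGL Q) (subalgebraNormalizer K ⊓ omegaGL Q) := by
  have hr3 : 3 ≤ r := by
    have := hr.two_le
    omega
  refine isMaximalIn_of_over hQ (by omega) h2 hr hK hsa ?_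
  intro K' _ _ _ _ _ q H hO hrK hdim hH
  obtain ⟨p, hpr, hcp⟩ : ∃ p : ℕ, p.Prime ∧ CharP F p :=
    ⟨ringChar F, CharP.char_is_prime F _, ringChar.charP F⟩
  have : Fact p.Prime := ⟨hpr⟩
  have hp : p ≠ 2 := by
    rintro rfl
    apply h2
    have := CharP.cast_eq_zero F 2
    exact_mod_cast this
  have hd : 3 ≤ Module.finrank K' (ι → F) := by
    by_contra hcon
    have h3 : Module.finrank K' (ι → F) * r ≤ 2 * r := Nat.mul_le_mul_right r (by omega)
    omega
  have hfd : FiniteDimensional K' (ι → F) := Module.Finite.of_finite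
  obtain ⟨u, -, hu0, hu⟩ := exists_sing_mem (Q := q) (⊤ : Submodule K' (ι → F)) (by
    rw [finrank_top]; exact hd)
  refine hO.main hp (by rw [hrK]; exact hr) (by rw [hrK]; exact hr2) hd ?_ hu hu0 hH
  rintro ⟨h1, h3, h4⟩
  apply hex
  rw [hrK] at h3
  rw [h4, h3] at hdim
  refine ⟨?_, h3, hdim.symm⟩
  rw [← h1]
  exact (ringChar.eq F p).symm ▸ rfl

end Cfsg.Agent.H923.Wrap
end

-- part: H923/WrapAll
section
/-!
Maximality of the normalisers of self-adjoint field subalgebras of odd prime degree in `Ω`: all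
cases.
-/

set_option autoImplicit false
set_option linter.unusedSectionVars false

namespace Cfsg.Agent.H923.KF

open QuadraticMap Module Cfsg.Agent.LieClassical.OrthCore Cfsg.Agent.LieClassical.OrthTrans
  Cfsg.Agent.LieClassical.OrthSimple Cfsg.Agent.ClassicalGeometry.OrthAutBasic

variable {F K V : Type*} [Field F] [Field K] [Algebra F K] [AddCommGroup V] [Module F V]
  [Module K V] [IsScalarTower F K V] {q : QuadraticForm K V} {Q : QuadraticForm F V}
  {H : Subgroup (V ≃ₗ[F] V)} [Finite K] [FiniteDimensional F V]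

/-- **Overgroups of `N_Ω(K)`, `K` of odd prime degree**, all characteristics. -/
theorem Over.main_all (h : Over q Q H) {p : ℕ} [Fact p.Prime] [CharP F p] (hp : p ≠ 2)
    (hr : (finrank F K).Prime) (hr2 : finrank F K ≠ 2) (hK : 3 ≤ finrank K V)
    {u : V} (hu : q u = 0) (hu0 : u ≠ 0) (hH : ¬ H ≤ NK F K V) : E Q ≤ H := by
  by_cases hthin : Thin q H u
  · by_cases hex : p = 3 ∧ finrank F K = 3 ∧ finrank K V = 3
    · obtain ⟨rfl, h3, -⟩ := hex
      exact absurd (h.le_NK_three h3 hK hu hu0 hthin) hH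
    · exact absurd (h.le_NK hp hr hK hex hu hu0 hthin (Or.inl fun hc => hr2 hc.2)) hH
  · exact h.E_le_of_not_thin hp hr hr2 hK hu hu0 hthin

end Cfsg.Agent.H923.KF

namespace Cfsg.Agent.H923.Wrap

open QuadraticMap Cfsg.Geo Cfsg.Agent.LieClassical.OrthCore Cfsg.Agent.LieClassical.OrthTrans
  Cfsg.Agent.LieClassical.OrthFinite Cfsg.Agent.H887.OmegaBridge Cfsg.Agent.H925.Ext
  Cfsg.Agent.H923.KF
open scoped MatrixGroups Matrix

universe u

variable {ι : Type} [Fintype ι] [DecidableEq ι] {F : Type u} [Field F]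

/-- **Self-adjoint field subalgebras of odd prime degree**, `dim_K ≥ 3`. -/
theorem selfAdjoint_isMaximalIn_odd_all [Finite F] {Q : (ι → F) → F}
    (hQ : IsNondegenerateQuadraticForm Q) (h2 : (2 : F) ≠ 0) {r : ℕ} (hr : r.Prime) (hr2 : r ≠ 2)
    (hn : 3 * r ≤ Fintype.card ι)
    {K : Subalgebra F (Matrix ι ι F)} (hK : IsFieldSubalgebra r K)
    (hsa : IsSelfAdjointFor (polar Q) K) :
    IsMaximalIn (omegaGL Q) (subalgebraNormalizer K ⊓ omegaGL Q) := by
  have hr3 : 3 ≤ r := by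
    have := hr.two_le
    omega
  refine isMaximalIn_of_over hQ (by omega) h2 hr hK hsa ?_
  intro K' _ _ _ _ _ q H hO hrK hdim hH
  obtain ⟨p, hpr, hcp⟩ : ∃ p : ℕ, p.Prime ∧ CharP F p :=
    ⟨ringChar F, CharP.char_is_prime F _, ringChar.charP F⟩
  have : Fact p.Prime := ⟨hpr⟩
  have hp : p ≠ 2 := by
    rintro rfl
    apply h2
    have := CharP.cast_eq_zero F 2
    exact_mod_cast this
  have hd : 3 ≤ Module.finrank K' (ι → F) := by
    by_contra hcon
    have h3 : Module.finrank K' (ι → F) * r ≤ 2 * r := Nat.mul_le_mul_right r (by omega)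
    omega
  have hfd : FiniteDimensional K' (ι → F) := Module.Finite.of_finite
  obtain ⟨u, -, hu0, hu⟩ := exists_sing_mem (Q := q) (⊤ : Submodule K' (ι → F)) (by
    rw [finrank_top]; exact hd)
  exact hO.main_all hp (by rw [hrK]; exact hr) (by rw [hrK]; exact hr2) hd hu hu0 hH

end Cfsg.Agent.H923.Wrap
end

-- part: H922/TenSeven
section
/-!
Tensor decompositions `V = A ⊗ B`, `dim A = dim B = 3`, `q ≥ 7`: a proper overgroup of the
stabiliser preserves the decomposition.
-/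

set_option autoImplicit false
set_option linter.unusedSectionVars false

namespace Cfsg.Agent.H922.Ten

open QuadraticMap Cfsg.Agent.LieClassical.OrthCore Cfsg.Agent.LieClassical.OrthTrans
  Cfsg.Agent.LieClassical.OrthSimple Cfsg.Agent.ClassicalGeometry.OrthAutBasic
  Cfsg.Agent.H887.SiegelMethod

variable {F V A B : Type*} [Field F] [AddCommGroup V] [Module F V] [AddCommGroup A] [Module F A]
  [AddCommGroup B] [Module F B] {Q : QuadraticForm F V} {QA : QuadraticForm F A}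
  {QB : QuadraticForm F B} {ten : A →ₗ[F] B →ₗ[F] V}

variable {a1 a2 a3 : A} {b1 b2 b3 : B}

/-- An element of a proper overgroup mapping `A ⊗ b1` to pure tensors preserves the
decomposition. -/
theorem DS_of_pure [Finite F] [FiniteDimensional F A] [FiniteDimensional F B] (hF : 5 ≤ Nat.card F)
    (h : TD Q QA QB ten) {L : Subgroup (V ≃ₗ[F] V)}
    (hL : Ov Q ten L) (hG : Good Q) (hne : ¬ E Q ≤ L) (ha : HB QA a1 a2 a3)
    (hdA : Module.finrank F A = 3) (hdB : Module.finrank F B = 3) (hb : HB QB b1 b2 b3)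
    {s0 : V ≃ₗ[F] V} (hs0 : s0 ∈ L) (hsw : Sw ten s0) {g : V ≃ₗ[F] V}
    (hg : g ∈ L) (hp : ∀ x, ∃ a b, g (ten x b1) = ten a b) : DS ten g := by
  have ha20 : a2 ≠ 0 := by
    intro h0
    apply ha.q2
    rw [h0]
    exact QuadraticMap.map_zero QA
  have hne0 : g (ten a2 b1) ≠ 0 := by
    intro h0
    have h1 : ten a2 b1 = 0 := (LinearEquiv.map_eq_zero_iff g).1 h0
    have h2 : ten a2 b1 = ten 0 b1 := by rw [h1, map_zero, LinearMap.zero_apply]
    exact ha20 (h.ten_inj hb.hyp.left_ne h2)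
  have hginj : ∀ x y, g (ten x b1) = g (ten y b1) → x = y := fun x y hxy =>
    h.ten_inj hb.hyp.left_ne (g.injective hxy)
  rcases h.pure_space (f := g.toLinearMap ∘ₗ ten.flip b1) hp with ⟨b', hb'⟩ | ⟨a', ha'⟩
  · -- `g (A ⊗ b1) = A ⊗ b'`
    have hb'0 : b' ≠ 0 := by
      rintro rfl
      obtain ⟨a, ha⟩ := hb' a2
      apply hne0
      have : g (ten a2 b1) = ten a 0 := ha
      rw [this, map_zero]
    obtain ⟨b'', hb''⟩ := h.nB.exists_polar_eq hb'0 1
    let f1 : A →ₗ[F] A := h.pb b'' ∘ₗ g.toLinearMap ∘ₗ ten.flip b1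
    have hf1 : ∀ x, g (ten x b1) = ten (f1 x) b' := by
      intro x
      obtain ⟨y, hy⟩ := hb' x
      have hy' : g (ten x b1) = ten y b' := hy
      have : f1 x = h.pb b'' (g (ten x b1)) := rfl
      rw [this, hy', h.pb_ten, polar_comm, hb'', one_smul]
    have hinj : Function.Injective f1 := by
      intro x y hxy
      apply hginj
      rw [hf1, hf1, hxy]
    have hsurj : Function.Surjective f1 := LinearMap.injective_iff_surjective.1 hinj
    have hdec : Dec ten g⁻¹ := by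
      refine dec_of_map hF h hL hG hne ha hdA hb (L.inv_mem hg) hb'0 fun x => ?_
      obtain ⟨y, rfl⟩ := hsurj x
      refine ⟨y, ?_⟩
      rw [← hf1]
      exact LinearEquiv.symm_apply_apply g _
    left
    have := hdec.inv
    rwa [inv_inv] at this
  · -- `g (A ⊗ b1) = a' ⊗ B`
    have ha'0 : a' ≠ 0 := by
      rintro rfl
      obtain ⟨b, hb⟩ := ha' a2
      apply hne0
      have : g (ten a2 b1) = ten 0 b := hb
      rw [this, map_zero, LinearMap.zero_apply]
    obtain ⟨a'', ha''⟩ := h.nA.exists_polar_eq ha'0 1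
    let f1 : A →ₗ[F] B := h.flip.pb a'' ∘ₗ g.toLinearMap ∘ₗ ten.flip b1
    have hf1 : ∀ x, g (ten x b1) = ten a' (f1 x) := by
      intro x
      obtain ⟨y, hy⟩ := ha' x
      have hy' : g (ten x b1) = ten a' y := hy
      have : f1 x = h.flip.pb a'' (g (ten x b1)) := rfl
      rw [this, hy']
      have e : h.flip.pb a'' (ten a' y) = polar QA a'' a' • y := h.flip.pb_ten a'' y a'
      rw [e, polar_comm, ha'', one_smul]
    have hinj : Function.Injective f1 := by
      intro x y hxy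
      apply hginj
      rw [hf1, hf1, hxy]
    have hsurj : Function.Surjective f1 :=
      (LinearMap.injective_iff_surjective_of_finrank_eq_finrank (by rw [hdA, hdB])).1 hinj
    have hsw' : Sw ten g⁻¹ := by
      refine sw_of_map hF h hL hG hne ha hdA hb hs0 hsw (L.inv_mem hg) ha'0 fun x => ?_
      obtain ⟨y, rfl⟩ := hsurj x
      refine ⟨y, ?_⟩
      rw [← hf1]
      exact LinearEquiv.symm_apply_apply g _
    right
    have := hsw'.inv
    rwa [inv_inv] at this

/-- The elements of `L` preserving the decomposition. -/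
def HS (ten : A →ₗ[F] B →ₗ[F] V) (L : Subgroup (V ≃ₗ[F] V)) : Subgroup L where
  carrier := {g | DS ten (g : V ≃ₗ[F] V)}
  mul_mem' := fun hg hg' => DS.mul hg hg'
  one_mem' := Or.inl dec_one
  inv_mem' := fun hg => DS.inv hg

/-- The one-parameter group `1 ⊗ T b1 (t b2)`. -/
noncomputable def TD.jB (h : TD Q QA QB ten) {L : Subgroup (V ≃ₗ[F] V)} (hL : Ov Q ten L)
    (hG : Good Q) (hb : HB QB b1 b2 b3) : Multiplicative F →* L where
  toFun t := ⟨h.tm 1 (T QB b1 (t.toAdd • b2)), hL.tB h hG _ _⟩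
  map_one' := by
    apply Subtype.ext
    show h.tm 1 (T QB b1 ((0 : F) • b2)) = 1
    rw [zero_smul, T_zero_right, h.tm_one]
  map_mul' t t' := by
    apply Subtype.ext
    show h.tm 1 (T QB b1 ((t.toAdd + t'.toAdd) • b2)) =
      h.tm 1 (T QB b1 (t.toAdd • b2)) * h.tm 1 (T QB b1 (t'.toAdd • b2))
    rw [← h.tm_mul, one_mul, T_mul hb.hyp.left (by rw [polar_smul_right, hb.p12, smul_zero])
      (by rw [polar_smul_right, hb.p12, smul_zero]), add_smul]

theorem TD.jB_coe (h : TD Q QA QB ten) {L : Subgroup (V ≃ₗ[F] V)} (hL : Ov Q ten L)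
    (hG : Good Q) (hb : HB QB b1 b2 b3) (t : Multiplicative F) :
    ((h.jB hL hG hb t : L) : V ≃ₗ[F] V) = h.tm 1 (T QB b1 (t.toAdd • b2)) := rfl

theorem TD.jB_inv (h : TD Q QA QB ten) {L : Subgroup (V ≃ₗ[F] V)} (hL : Ov Q ten L)
    (hG : Good Q) (hb : HB QB b1 b2 b3) (t : Multiplicative F) (v : V) :
    (((h.jB hL hG hb t : L) : V ≃ₗ[F] V)⁻¹ : V ≃ₗ[F] V) v =
      v + (-t.toAdd) • h.mB (nu QB b1 b2) v + (-t.toAdd) ^ 2 • h.mB (nu2 QB b1 b2) v := by
  have h1 : ((h.jB hL hG hb t : L) : V ≃ₗ[F] V)⁻¹ = ((h.jB hL hG hb t⁻¹ : L) : V ≃ₗ[F] V) := by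
    rw [map_inv]
    rfl
  rw [h1, h.jB_coe, toAdd_inv, h.tmB_poly hb]

theorem sum_poly [Fintype F] (hF : 7 ≤ Fintype.card F) (c0 c1 c2 c3 c4 : F) :
    ∑ t : F, (c0 + c1 * t + c2 * t ^ 2 + c3 * t ^ 3 + c4 * t ^ 4) = 0 := by
  have hs : ∀ i, i ≤ 4 → ∑ t : F, t ^ i = 0 := fun i hi =>
    FiniteField.sum_pow_lt_card_sub_one F i (by omega)
  have h1 : ∑ t : F, t = 0 := by
    have := hs 1 (by omega)
    simpa using this
  have h6 : ∑ t : F, c1 * t = c1 * ∑ t : F, t := (Finset.mul_sum _ _ _).symm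
  simp only [Finset.sum_add_distrib, h6, ← Finset.mul_sum, hs 2 (by omega), hs 3 (by omega),
    hs 4 (by omega), h1]
  have h0 := hs 0 (by omega)
  simp only [pow_zero] at h0
  have h5 : ∑ _t : F, c0 = c0 * ∑ _t : F, 1 := by rw [Finset.mul_sum]; simp
  rw [h5, h0]
  ring

section main

variable [Finite F] [FiniteDimensional F A] [FiniteDimensional F B]

theorem tr_eq_of_fix (hF : 7 ≤ Nat.card F) (h : TD Q QA QB ten) {L : Subgroup (V ≃ₗ[F] V)}
    [Finite L] (hL : Ov Q ten L) (hG : Good Q) (hne : ¬ E Q ≤ L) (ha : HB QA a1 a2 a3)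
    (hdA : Module.finrank F A = 3) (hdB : Module.finrank F B = 3) (hb : HB QB b1 b2 b3)
    {s0 : V ≃ₗ[F] V} (hs0 : s0 ∈ L) (hsw : Sw ten s0) {M : V →ₗ[F] V →ₗ[F] F}
    (hM : ∀ t, ((rho F V).comp L.subtype) (h.jB hL hG hb t) M = M) :
    Trace.tr ((rho F V).comp L.subtype) (HS ten L) h.pj M = h.pj M := by
  have hFt : Fintype F := Fintype.ofFinite F
  have : Fintype (Multiplicative F) := Fintype.ofFinite _
  rw [Nat.card_eq_fintype_card] at hF
  have hF5 : 5 ≤ Nat.card F := by rw [Nat.card_eq_fintype_card]; omega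
  obtain ⟨Y, hY⟩ := Trace.tr_apply (F := F) (X := V →ₗ[F] V →ₗ[F] F)
    (ρ := (rho F V).comp L.subtype) (H := HS ten L) (π := h.pj)
    (fun g hg => h.pj_comm hg) (h.jB hL hG hb)
    (fun d => Or.inl (h.dec_tm _ _))
    (fun d hd g hgd => by
      refine fusion hF5 h hL hG hne ha hdA hdB hb hs0 hsw (c := d.toAdd)
        (fun h0 => hd (by rw [← ofAdd_toAdd d, h0]; rfl)) g.2
        (g⁻¹ * h.jB hL hG hb d * g).2 ?_ hgd
      rw [← h.jB_coe hL hG hb, ← Subgroup.coe_mul, ← Subgroup.coe_mul]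
      congr 1
      group) hM
  rw [hY]
  have hsum : ∑ d, ((rho F V).comp L.subtype) (h.jB hL hG hb d) Y = 0 := by
    ext v w
    rw [LinearMap.sum_apply, LinearMap.sum_apply, LinearMap.zero_apply, LinearMap.zero_apply]
    have e : ∀ d : Multiplicative F, ((rho F V).comp L.subtype) (h.jB hL hG hb d) Y v w =
        (Y v w + (-(Y (h.mB (nu QB b1 b2) v) w) - Y v (h.mB (nu QB b1 b2) w)) * d.toAdd +
        (Y (h.mB (nu2 QB b1 b2) v) w + Y v (h.mB (nu2 QB b1 b2) w) +
          Y (h.mB (nu QB b1 b2) v) (h.mB (nu QB b1 b2) w)) * d.toAdd ^ 2 +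
        (-(Y (h.mB (nu2 QB b1 b2) v) (h.mB (nu QB b1 b2) w)) -
          Y (h.mB (nu QB b1 b2) v) (h.mB (nu2 QB b1 b2) w)) * d.toAdd ^ 3 +
        Y (h.mB (nu2 QB b1 b2) v) (h.mB (nu2 QB b1 b2) w) * d.toAdd ^ 4) := by
      intro d
      have e1 : ((rho F V).comp L.subtype) (h.jB hL hG hb d) Y v w =
        Y ((((h.jB hL hG hb d : L) : V ≃ₗ[F] V)⁻¹ : V ≃ₗ[F] V) v)
          ((((h.jB hL hG hb d : L) : V ≃ₗ[F] V)⁻¹ : V ≃ₗ[F] V) w) := rfl
      rw [e1, h.jB_inv, h.jB_inv]
      simp only [map_add, map_smul, LinearMap.add_apply, LinearMap.smul_apply, smul_eq_mul]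
      ring
    rw [Finset.sum_congr rfl fun d _ => e d]
    have e2 := sum_poly hF (Y v w) (-(Y (h.mB (nu QB b1 b2) v) w) - Y v (h.mB (nu QB b1 b2) w))
        (Y (h.mB (nu2 QB b1 b2) v) w + Y v (h.mB (nu2 QB b1 b2) w) +
          Y (h.mB (nu QB b1 b2) v) (h.mB (nu QB b1 b2) w))
        (-(Y (h.mB (nu2 QB b1 b2) v) (h.mB (nu QB b1 b2) w)) -
          Y (h.mB (nu QB b1 b2) v) (h.mB (nu2 QB b1 b2) w))
        (Y (h.mB (nu2 QB b1 b2) v) (h.mB (nu2 QB b1 b2) w))
    rw [← e2]
    exact Fintype.sum_equiv Multiplicative.toAdd _ _ fun d => rfl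
  rw [hsum, add_zero]

theorem TD.rho_mko (h : TD Q QA QB ten) (η : A →ₗ[F] A →ₗ[F] F) {β : B ≃ₗ[F] B} (hβ : β ∈ O QB)
    (x y : B) : rho F V (h.tm 1 β) (h.mko η (om QB x y)) = h.mko η (om QB (β x) (β y)) := by
  refine h.ext₂ fun a b a' b' => ?_
  have e : ∀ (a : A) (b : B), ((h.tm 1 β)⁻¹ : V ≃ₗ[F] V) (ten a b) = ten a ((β⁻¹ : B ≃ₗ[F] B) b) := by
    intro a b
    rw [h.tm_inv, h.tm_ten]
    rfl
  have e2 : ∀ x b, polar QB x ((β⁻¹ : B ≃ₗ[F] B) b) = polar QB (β x) b := by
    intro x b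
    have : β ((β⁻¹ : B ≃ₗ[F] B) b) = b := LinearEquiv.apply_symm_apply β b
    conv_rhs => rw [← this]
    rw [polar_map hβ]
  rw [rho_apply, e, e, h.mko_ten, h.mko_ten, om_apply, om_apply, e2, e2, e2, e2]

theorem TD.mko_fixed (h : TD Q QA QB ten) {L : Subgroup (V ≃ₗ[F] V)} (hL : Ov Q ten L)
    (hG : Good Q) (hb : HB QB b1 b2 b3) (η : A →ₗ[F] A →ₗ[F] F) (t : Multiplicative F) :
    ((rho F V).comp L.subtype) (h.jB hL hG hb t) (h.mko η (om QB b1 b2)) =
      h.mko η (om QB b1 b2) := by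
  have e : ((rho F V).comp L.subtype) (h.jB hL hG hb t) = rho F V (h.tm 1 (T QB b1 (t.toAdd • b2))) :=
    rfl
  rw [e, h.rho_mko η (T_mem_O _ _), T_HB_one hb, T_HB_two hb]
  refine h.ext₂ fun a b a' b' => ?_
  rw [h.mko_ten, h.mko_ten, om_apply, om_apply]
  simp only [polar_sub_left, polar_smul_left, smul_eq_mul]
  ring

/-- Decomposition of the forms alternating in both slots. -/
theorem TD.fix_decomp (h : TD Q QA QB ten) (hb : HB QB b1 b2 b3) {M : V →ₗ[F] V →ₗ[F] F}
    (hM : h.pj M = M) :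
    M = (-(2 * QB b2)⁻¹) • h.mko (M.compl₁₂ (ten.flip b2) (ten.flip b3)) (om QB b1 b2) +
      ((2 * QB b2)⁻¹) • h.mko (M.compl₁₂ (ten.flip b1) (ten.flip b2)) (om QB b3 b2) +
      (((2 * QB b2)⁻¹) • h.mko (M.compl₁₂ (ten.flip b1) (ten.flip b3)) (om QB b3 b2) +
      ((2 * QB b2)⁻¹ * (2 * QB b2 - QB b2)) •
        h.mko (M.compl₁₂ (ten.flip b1) (ten.flip b3)) (om QB b1 b2) +
      (-(2 * QB b2)⁻¹) • h.mko (M.compl₁₂ (ten.flip b1) (ten.flip b3))
        (om QB (T QB b1 ((1 : F) • b2) b3) (T QB b1 ((1 : F) • b2) b2))) := by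
  have hδ : (2 * QB b2) ≠ 0 := mul_ne_zero h.two hb.q2
  have hδ1 : (2 * QB b2)⁻¹ * (2 * QB b2) = 1 := inv_mul_cancel₀ hδ
  obtain ⟨h1, h2⟩ := (h.fix_iff M).1 hM
  refine h.ext₂ fun a y a' y' => ?_
  simp only [LinearMap.add_apply, LinearMap.smul_apply, smul_eq_mul]
  rw [h.mko_ten, h.mko_ten, h.mko_ten, h.mko_ten, h.mko_ten]
  simp only [LinearMap.compl₁₂_apply, LinearMap.flip_apply, om_apply, T_HB_two hb, T_HB_three hb,
    polar_sub_left, polar_add_left, polar_smul_left, smul_eq_mul]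
  -- expand the left side
  have e11 : M (ten a b1) (ten a' b1) = 0 := by
    have := h2 a b1 a' b1
    have h3 : 2 * M (ten a b1) (ten a' b1) = 0 := by linear_combination this
    exact (mul_eq_zero.1 h3).resolve_left h.two
  have e22 : M (ten a b2) (ten a' b2) = 0 := by
    have := h2 a b2 a' b2
    have h3 : 2 * M (ten a b2) (ten a' b2) = 0 := by linear_combination this
    exact (mul_eq_zero.1 h3).resolve_left h.two
  have e33 : M (ten a b3) (ten a' b3) = 0 := by
    have := h2 a b3 a' b3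
    have h3 : 2 * M (ten a b3) (ten a' b3) = 0 := by linear_combination this
    exact (mul_eq_zero.1 h3).resolve_left h.two
  have e21 : M (ten a b2) (ten a' b1) = - M (ten a b1) (ten a' b2) := h2 a b1 a' b2
  have e31 : M (ten a b3) (ten a' b1) = - M (ten a b1) (ten a' b3) := h2 a b1 a' b3
  have e32 : M (ten a b3) (ten a' b2) = - M (ten a b2) (ten a' b3) := h2 a b2 a' b3
  have e : M (ten a y) (ten a' y') =
      (polar QB b3 y * ((2 * QB b2)⁻¹ * polar QB b2 y') -
        ((2 * QB b2)⁻¹ * polar QB b2 y) * polar QB b3 y') * M (ten a b1) (ten a' b2) +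
      (polar QB b3 y * polar QB b1 y' - polar QB b1 y * polar QB b3 y') *
        M (ten a b1) (ten a' b3) +
      (((2 * QB b2)⁻¹ * polar QB b2 y) * polar QB b1 y' -
        polar QB b1 y * ((2 * QB b2)⁻¹ * polar QB b2 y')) * M (ten a b2) (ten a' b3) := by
    conv_lhs => rw [hb.span y, hb.span y']
    simp only [map_add, map_smul, LinearMap.add_apply, LinearMap.smul_apply, smul_eq_mul]
    rw [e11, e22, e33, e21, e31, e32]
    ring
  rw [e]
  linear_combination (-(polar QB b3 y * polar QB b1 y' - polar QB b1 y * polar QB b3 y') *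
        M (ten a b1) (ten a' b3)) * hδ1

theorem tr_eq_id (hF : 7 ≤ Nat.card F) (h : TD Q QA QB ten) {L : Subgroup (V ≃ₗ[F] V)}
    [Finite L] (hL : Ov Q ten L) (hG : Good Q) (hne : ¬ E Q ≤ L) (ha : HB QA a1 a2 a3)
    (hdA : Module.finrank F A = 3) (hdB : Module.finrank F B = 3) (hb : HB QB b1 b2 b3)
    {s0 : V ≃ₗ[F] V} (hs0 : s0 ∈ L) (hsw : Sw ten s0) {M : V →ₗ[F] V →ₗ[F] F}
    (hM : h.pj M = M) :
    Trace.tr ((rho F V).comp L.subtype) (HS ten L) h.pj M = M := by
  obtain ⟨h1, h2⟩ := (h.fix_iff M).1 hM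
  have hη : ∀ c c' : B, ∀ a x, (M.compl₁₂ (ten.flip c) (ten.flip c')) x a =
      - (M.compl₁₂ (ten.flip c) (ten.flip c')) a x := fun c c' a x => h1 a c x c'
  have key : ∀ {c1 c2 c3 : B}, HB QB c1 c2 c3 → ∀ c c' : B,
      Trace.tr ((rho F V).comp L.subtype) (HS ten L) h.pj
        (h.mko (M.compl₁₂ (ten.flip c) (ten.flip c')) (om QB c1 c2)) =
      h.mko (M.compl₁₂ (ten.flip c) (ten.flip c')) (om QB c1 c2) := by
    intro c1 c2 c3 hc c c'
    rw [tr_eq_of_fix hF h hL hG hne ha hdA hdB hc hs0 hsw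
      (fun t => h.mko_fixed hL hG hc _ t), h.mko_fix (hη c c') (om_skew c1 c2)]
  have hbu := hb.symm.map (g := T QB b1 ((1 : F) • b2)) (T_mem_O _ _)
  conv_lhs => rw [h.fix_decomp hb hM]
  simp only [map_add, map_smul]
  rw [key hb, key hb.symm, key hb.symm, key hb, key hbu]
  exact (h.fix_decomp hb hM).symm

/-- **q ≥ 7.** -/
theorem DS_of_seven (hF : 7 ≤ Nat.card F) (h : TD Q QA QB ten) {L : Subgroup (V ≃ₗ[F] V)}
    (hL : Ov Q ten L) (hG : Good Q) (hne : ¬ E Q ≤ L) (ha : HB QA a1 a2 a3)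
    (hdA : Module.finrank F A = 3) (hdB : Module.finrank F B = 3) (hb : HB QB b1 b2 b3)
    {s0 : V ≃ₗ[F] V} (hs0 : s0 ∈ L) (hsw : Sw ten s0) {g : V ≃ₗ[F] V} (hg : g ∈ L) :
    DS ten g := by
  have : FiniteDimensional F V := Module.finite_of_finrank_pos (by have := hG.dim; omega)
  have : Finite V := Module.finite_of_finite F
  have : Finite (V ≃ₗ[F] V) := DFunLike.finite _
  have : Finite (V →ₗ[F] V →ₗ[F] F) := Module.finite_of_finite F
  obtain ⟨p, hp⟩ := CharP.exists F
  have hpp : p.Prime := CharP.char_is_prime F p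
  have : Fact p.Prime := ⟨hpp⟩
  have hpg : IsPGroup p (Multiplicative F) := by
    intro t
    refine ⟨1, ?_⟩
    apply Multiplicative.toAdd.injective
    rw [pow_one, toAdd_pow, ← Nat.cast_smul_eq_nsmul F, CharP.cast_eq_zero, zero_smul]
    rfl
  refine DS_of_pure (by omega) h hL hG hne ha hdA hdB hb hs0 hsw hg fun x => ?_
  refine h.pure_of_forms hb fun M hM => ?_
  have h1 := Trace.green (F := F) (X := V →ₗ[F] V →ₗ[F] F)
    (ρ := (rho F V).comp L.subtype) (H := HS ten L) (π := h.pj)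
    (fun g hg => h.pj_comm hg) hpg (h.jB hL hG hb) (fun d => Or.inl (h.dec_tm _ _))
    (fun M => ∀ t, ((rho F V).comp L.subtype) (h.jB hL hG hb t) M = M) (fun M hM => hM) ⊤
    (fun _ _ _ => Submodule.mem_top) (fun _ _ => Submodule.mem_top) (fun M _ => h.pj_pj M)
    (fun M _ hM => tr_eq_of_fix hF h hL hG hne ha hdA hdB hb hs0 hsw hM)
    (fun M _ hM => tr_eq_id hF h hL hG hne ha hdA hdB hb hs0 hsw hM)
    (⟨g, hg⟩⁻¹ : L) Submodule.mem_top hM
  obtain ⟨h2, -⟩ := (h.fix_iff _).1 h1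
  have h3 := h2 x b1 x b1
  have h4 : ((rho F V).comp L.subtype) (⟨g, hg⟩⁻¹ : L) M (ten x b1) (ten x b1) =
      M (g (ten x b1)) (g (ten x b1)) := rfl
  rw [h4] at h3
  have h5 : 2 * M (g (ten x b1)) (g (ten x b1)) = 0 := by linear_combination h3
  exact (mul_eq_zero.1 h5).resolve_left h.two

end main

end Cfsg.Agent.H922.Ten
end

-- part: H922/TenFive
section
/-!
Tensor decompositions `V = A ⊗ B`, `dim A = dim B = 3`, `q = 5`: contractions of bilinear forms and
the projection of the alternating forms onto `so(A) ⊕ so(B)`.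
-/

set_option autoImplicit false
set_option linter.unusedSectionVars false

namespace Cfsg.Agent.H922.Ten

open QuadraticMap Cfsg.Agent.LieClassical.OrthCore Cfsg.Agent.LieClassical.OrthTrans
  Cfsg.Agent.LieClassical.OrthSimple Cfsg.Agent.ClassicalGeometry.OrthAutBasic
  Cfsg.Agent.H887.SiegelMethod

variable {F V A B : Type*} [Field F] [AddCommGroup V] [Module F V] [AddCommGroup A] [Module F A]
  [AddCommGroup B] [Module F B] {Q : QuadraticForm F V} {QA : QuadraticForm F A}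
  {QB : QuadraticForm F B} {ten : A →ₗ[F] B →ₗ[F] V}

variable {a1 a2 a3 : A} {b1 b2 b3 : B}

/-- The contraction of a bilinear form, computed in a hyperbolic basis. -/
def ctr (QB : QuadraticForm F B) (b1 b2 b3 : B) (m : B →ₗ[F] B →ₗ[F] F) : F :=
  m b1 b3 + (2 * QB b2)⁻¹ * m b2 b2 + m b3 b1

theorem ctr_eq [FiniteDimensional F B] (hB : Nondeg QB) (hb : HB QB b1 b2 b3) {c1 c2 c3 : B}
    (hc : HB QB c1 c2 c3) (m : B →ₗ[F] B →ₗ[F] F) : ctr QB b1 b2 b3 m = ctr QB c1 c2 c3 m := by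
  let Tt : B → B → B → B →ₗ[F] B := fun b1 b2 b3 =>
    (m.flip b3).smulRight b1 + ((2 * QB b2)⁻¹ • m.flip b2).smulRight b2 + (m.flip b1).smulRight b3
  have htr : ∀ b1 b2 b3 : B, LinearMap.trace F B (Tt b1 b2 b3) = ctr QB b1 b2 b3 m := by
    intro b1 b2 b3
    simp only [Tt, map_add, LinearMap.trace_smulRight, ctr, LinearMap.flip_apply,
      LinearMap.smul_apply, smul_eq_mul]
  have hT : ∀ {b1 b2 b3 : B}, HB QB b1 b2 b3 → ∀ y y', polar QB (Tt b1 b2 b3 y) y' = m y y' := by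
    intro b1 b2 b3 hb y y'
    conv_rhs => rw [hb.span y']
    simp only [Tt, LinearMap.add_apply, LinearMap.smulRight_apply, LinearMap.flip_apply,
      LinearMap.smul_apply, polar_add_left, polar_smul_left, map_add, map_smul, smul_eq_mul]
    ring
  have e : Tt b1 b2 b3 = Tt c1 c2 c3 := by
    ext y
    rw [← sub_eq_zero]
    apply hB
    intro y'
    rw [polar_sub_left, hT hb, hT hc, sub_self]
  rw [← htr, ← htr, e]

/-- Contractions and similarities. -/
theorem ctr_comp [FiniteDimensional F A] (hA : Nondeg QA) (ha : HB QA a1 a2 a3)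
    (hb : HB QB b1 b2 b3) {σ : B ≃ₗ[F] A} {μ : F} (hμ : μ ≠ 0)
    (hσ : ∀ b, QA (σ b) = μ * QB b) (m : A →ₗ[F] A →ₗ[F] F) :
    ctr QB b1 b2 b3 (m.compl₁₂ σ.toLinearMap σ.toLinearMap) = μ * ctr QA a1 a2 a3 m := by
  have hpol : ∀ b b', polar QA (σ b) (σ b') = μ * polar QB b b' := by
    intro b b'
    simp only [polar, ← map_add, hσ]
    ring
  have hc : HB QA (σ b1) (σ b2) (μ⁻¹ • σ b3) := by
    refine ⟨⟨?_, ?_, ?_⟩, ?_, ?_, ?_, ?_⟩
    · rw [hσ, hb.hyp.left, mul_zero]
    · rw [QuadraticMap.map_smul, hσ, hb.hyp.right, mul_zero, smul_zero]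
    · rw [polar_smul_right, hpol, hb.p13, mul_one, smul_eq_mul, inv_mul_cancel₀ hμ]
    · rw [hpol, hb.p12, mul_zero]
    · rw [polar_smul_left, hpol, hb.p32, mul_zero, smul_zero]
    · rw [hσ]
      exact mul_ne_zero hμ hb.q2
    · intro y
      obtain ⟨y, rfl⟩ := σ.surjective y
      rw [polar_smul_left, hpol, hpol, hpol, hσ]
      conv_lhs => rw [hb.span y, map_add, map_add, map_smul, map_smul, map_smul]
      rw [smul_smul, smul_eq_mul]
      congr 1
      · congr 1
        · rw [← mul_assoc, inv_mul_cancel₀ hμ, one_mul]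
        · congr 1
          have h2 : μ * (2 * (μ * QB b2))⁻¹ = (2 * QB b2)⁻¹ := by
            rw [mul_left_comm 2 μ, mul_inv μ, ← mul_assoc, mul_inv_cancel₀ hμ, one_mul]
          rw [← h2]
          ring
      · congr 1
        field_simp
  rw [ctr_eq hA ha hc]
  simp only [ctr, LinearMap.compl₁₂_apply, LinearEquiv.coe_coe, map_smul, LinearMap.smul_apply,
    smul_eq_mul, hσ]
  have h1 : μ * (μ⁻¹ * m (σ b1) (σ b3) + (2 * (μ * QB b2))⁻¹ * m (σ b2) (σ b2) +
      μ⁻¹ * m (σ b3) (σ b1)) = (μ * μ⁻¹) * m (σ b1) (σ b3) +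
      (μ * (2 * (μ * QB b2))⁻¹) * m (σ b2) (σ b2) + (μ * μ⁻¹) * m (σ b3) (σ b1) := by ring
  have h2 : μ * (2 * (μ * QB b2))⁻¹ = (2 * QB b2)⁻¹ := by
    rw [mul_left_comm 2 μ, mul_inv μ, ← mul_assoc, mul_inv_cancel₀ hμ, one_mul]
  rw [h1, h2, mul_inv_cancel₀ hμ, one_mul, one_mul]

/-- Contraction of the `B`-slots. -/
def cB (ten : A →ₗ[F] B →ₗ[F] V) (QB : QuadraticForm F B) (b1 b2 b3 : B) :
    (V →ₗ[F] V →ₗ[F] F) →ₗ[F] (A →ₗ[F] A →ₗ[F] F) where
  toFun M := M.compl₁₂ (ten.flip b1) (ten.flip b3) +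
    (2 * QB b2)⁻¹ • M.compl₁₂ (ten.flip b2) (ten.flip b2) + M.compl₁₂ (ten.flip b3) (ten.flip b1)
  map_add' M N := by
    ext a a'
    simp only [LinearMap.add_apply, LinearMap.smul_apply, LinearMap.compl₁₂_apply, smul_eq_mul]
    ring
  map_smul' c M := by
    ext a a'
    simp only [LinearMap.add_apply, LinearMap.smul_apply, LinearMap.compl₁₂_apply, smul_eq_mul,
      RingHom.id_apply]
    ring

theorem cB_apply (M : V →ₗ[F] V →ₗ[F] F) (a a' : A) : cB ten QB b1 b2 b3 M a a' =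
    ctr QB b1 b2 b3 (M.compl₁₂ (ten a) (ten a')) := rfl

/-- `η ↦ η ⊗ polar QB`. -/
noncomputable def TD.mL (h : TD Q QA QB ten) (ω : B →ₗ[F] B →ₗ[F] F) :
    (A →ₗ[F] A →ₗ[F] F) →ₗ[F] (V →ₗ[F] V →ₗ[F] F) where
  toFun η := h.mko η ω
  map_add' η η' := by
    refine h.ext₂ fun a b x y => ?_
    rw [LinearMap.add_apply, LinearMap.add_apply, h.mko_ten, h.mko_ten, h.mko_ten,
      LinearMap.add_apply, LinearMap.add_apply]
    ring
  map_smul' c η := by
    refine h.ext₂ fun a b x y => ?_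
    rw [LinearMap.smul_apply, LinearMap.smul_apply, h.mko_ten, h.mko_ten, LinearMap.smul_apply,
      LinearMap.smul_apply, smul_eq_mul, smul_eq_mul, RingHom.id_apply]
    ring

theorem TD.mL_apply (h : TD Q QA QB ten) (ω : B →ₗ[F] B →ₗ[F] F) (η : A →ₗ[F] A →ₗ[F] F) (a : A)
    (b : B) (x : A) (y : B) : h.mL ω η (ten a b) (ten x y) = η a x * ω b y := h.mko_ten η ω a b x y

/-- The projection. -/
noncomputable def TD.p5 (h : TD Q QA QB ten) (a1 a2 a3 : A) (b1 b2 b3 : B) :
    Module.End F (V →ₗ[F] V →ₗ[F] F) :=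
  (3 : F)⁻¹ • (h.mL (polarBilin QB) ∘ₗ cB ten QB b1 b2 b3 +
    h.flip.mL (polarBilin QA) ∘ₗ cB ten.flip QA a1 a2 a3)

theorem TD.p5_ten (h : TD Q QA QB ten) (M : V →ₗ[F] V →ₗ[F] F) (a : A) (b : B) (x : A) (y : B) :
    h.p5 a1 a2 a3 b1 b2 b3 M (ten a b) (ten x y) = (3 : F)⁻¹ *
      (ctr QB b1 b2 b3 (M.compl₁₂ (ten a) (ten x)) * polar QB b y +
        polar QA a x * ctr QA a1 a2 a3 (M.compl₁₂ (ten.flip b) (ten.flip y))) := by
  have e : h.flip.mL (polarBilin QA) (cB ten.flip QA a1 a2 a3 M) (ten a b) (ten x y) =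
      ctr QA a1 a2 a3 (M.compl₁₂ (ten.flip b) (ten.flip y)) * polar QA a x :=
    h.flip.mL_apply (polarBilin QA) (cB ten.flip QA a1 a2 a3 M) b a y x
  rw [TD.p5, LinearMap.smul_apply, LinearMap.add_apply, LinearMap.comp_apply,
    LinearMap.comp_apply, LinearMap.smul_apply, LinearMap.smul_apply, LinearMap.add_apply,
    LinearMap.add_apply, e, h.mL_apply, cB_apply, smul_eq_mul, polarBilin_apply_apply]
  ring

/-- The factor of similarity of a decomposable isometry. -/
theorem TD.similarity (h : TD Q QA QB ten) {g : V ≃ₗ[F] V} (hg : g ∈ O Q) {A' B' : Type*}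
    [AddCommGroup A'] [Module F A'] [AddCommGroup B'] [Module F B'] {QA' : QuadraticForm F A'}
    {QB' : QuadraticForm F B'} {ten' : A' →ₗ[F] B' →ₗ[F] V} (h' : TD Q QA' QB' ten')
    [Nontrivial A'] [Nontrivial B'] {α : A' ≃ₗ[F] A} {β : B' ≃ₗ[F] B}
    (hαβ : ∀ a b, g (ten' a b) = ten (α a) (β b)) :
    ∃ μ : F, μ ≠ 0 ∧ (∀ a, QA (α a) = μ * QA' a) ∧ (∀ b, QB (β b) = μ⁻¹ * QB' b) := by
  have hiso : ∀ a a' b b', polar QA (α a) (α a') * polar QB (β b) (β b') =
      polar QA' a a' * polar QB' b b' := by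
    intro a a' b b'
    rw [← h.form, ← hαβ, ← hαβ, polar_map hg, h'.form]
  obtain ⟨a0, ha0⟩ := exists_ne (0 : A')
  obtain ⟨b0, hb0⟩ := exists_ne (0 : B')
  obtain ⟨a1, ha1⟩ := h'.nA.exists_polar_eq ha0 1
  obtain ⟨b1, hb1⟩ := h'.nB.exists_polar_eq hb0 1
  have h1 := hiso a0 a1 b0 b1
  rw [ha1, hb1, mul_one] at h1
  have hμ0 : polar QA (α a0) (α a1) ≠ 0 := left_ne_zero_of_mul_eq_one h1
  have hinv : polar QB (β b0) (β b1) = (polar QA (α a0) (α a1))⁻¹ :=
    (eq_inv_of_mul_eq_one_right h1)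
  refine ⟨polar QA (α a0) (α a1), hμ0, fun a => ?_, fun b => ?_⟩
  · have h2 := hiso a a b0 b1
    rw [hb1, mul_one, polar_self', polar_self', hinv] at h2
    have h3 : 2 * QA (α a) = (2 * QA' a) * polar QA (α a0) (α a1) := by
      rw [← h2, mul_assoc, inv_mul_cancel₀ hμ0, mul_one]
    have h4 : 2 * QA (α a) = 2 * (polar QA (α a0) (α a1) * QA' a) := by rw [h3]; ring
    exact mul_left_cancel₀ h.two h4
  · have h2 := hiso a0 a1 b b
    rw [ha1, one_mul, polar_self', polar_self'] at h2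
    have h4 : 2 * QB (β b) = 2 * ((polar QA (α a0) (α a1))⁻¹ * QB' b) := by
      have : 2 * QB (β b) = (polar QA (α a0) (α a1))⁻¹ *
          (polar QA (α a0) (α a1) * (2 * QB (β b))) := by
        rw [← mul_assoc, inv_mul_cancel₀ hμ0, one_mul]
      rw [this, h2]
      ring
    exact mul_left_cancel₀ h.two h4

/-- The projection commutes with the isometries preserving the decomposition. -/
theorem TD.p5_comm [FiniteDimensional F A] [FiniteDimensional F B] [Nontrivial A] [Nontrivial B]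
    (h : TD Q QA QB ten) (ha : HB QA a1 a2 a3) (hb : HB QB b1 b2 b3)
    {g : V ≃ₗ[F] V} (hgO : g ∈ O Q) (hg : DS ten g) :
    rho F V g * h.p5 a1 a2 a3 b1 b2 b3 = h.p5 a1 a2 a3 b1 b2 b3 * rho F V g := by
  have hgi : g⁻¹ ∈ O Q := (O Q).inv_mem hgO
  refine LinearMap.ext fun M => h.ext₂ fun a b x y => ?_
  rw [Module.End.mul_apply, Module.End.mul_apply, rho_apply, h.p5_ten]
  rcases hg.inv with ⟨α, β, hαβ⟩ | ⟨σ, τ, hστ⟩
  · obtain ⟨μ, hμ, hα, hβ⟩ := h.similarity hgi h hαβ
    have hμi : μ⁻¹ ≠ 0 := inv_ne_zero hμ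
    rw [hαβ, hαβ, h.p5_ten]
    have e1 : (rho F V g M).compl₁₂ (ten a) (ten x) =
        (M.compl₁₂ (ten (α a)) (ten (α x))).compl₁₂ β.toLinearMap β.toLinearMap := by
      ext y y'
      show M ((g⁻¹ : V ≃ₗ[F] V) (ten a y)) ((g⁻¹ : V ≃ₗ[F] V) (ten x y')) = _
      rw [hαβ, hαβ]
      rfl
    have e2 : (rho F V g M).compl₁₂ (ten.flip b) (ten.flip y) =
        (M.compl₁₂ (ten.flip (β b)) (ten.flip (β y))).compl₁₂ α.toLinearMap α.toLinearMap := by
      ext y' y''
      show M ((g⁻¹ : V ≃ₗ[F] V) (ten y' b)) ((g⁻¹ : V ≃ₗ[F] V) (ten y'' y)) = _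
      rw [hαβ, hαβ]
      rfl
    rw [e1, e2, ctr_comp h.nB hb hb hμi hβ, ctr_comp h.nA ha ha hμ hα]
    have e3 : polar QB (β b) (β y) = μ⁻¹ * polar QB b y := by
      simp only [polar, ← map_add, hβ]
      ring
    have e4 : polar QA (α a) (α x) = μ * polar QA a x := by
      simp only [polar, ← map_add, hα]
      ring
    rw [e3, e4]
    ring
  · obtain ⟨μ, hμ, hσ, hτ⟩ := h.similarity hgi h.flip (α := σ) (β := τ) (fun b a => hστ a b)
    have hμi : μ⁻¹ ≠ 0 := inv_ne_zero hμ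
    rw [hστ, hστ, h.p5_ten]
    have e1 : (rho F V g M).compl₁₂ (ten a) (ten x) =
        (M.compl₁₂ (ten.flip (τ a)) (ten.flip (τ x))).compl₁₂ σ.toLinearMap σ.toLinearMap := by
      ext y y'
      show M ((g⁻¹ : V ≃ₗ[F] V) (ten a y)) ((g⁻¹ : V ≃ₗ[F] V) (ten x y')) = _
      rw [hστ, hστ]
      rfl
    have e2 : (rho F V g M).compl₁₂ (ten.flip b) (ten.flip y) =
        (M.compl₁₂ (ten (σ b)) (ten (σ y))).compl₁₂ τ.toLinearMap τ.toLinearMap := by
      ext y' y''
      show M ((g⁻¹ : V ≃ₗ[F] V) (ten y' b)) ((g⁻¹ : V ≃ₗ[F] V) (ten y'' y)) = _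
      rw [hστ, hστ]
      rfl
    rw [e1, e2, ctr_comp h.nA ha hb hμ hσ, ctr_comp h.nB hb ha hμi hτ]
    have e3 : polar QA (σ b) (σ y) = μ * polar QB b y := by
      simp only [polar, ← map_add, hσ]
      ring
    have e4 : polar QB (τ a) (τ x) = μ⁻¹ * polar QA a x := by
      simp only [polar, ← map_add, hτ]
      ring
    rw [e3, e4]
    ring

/-- The alternating (skew) bilinear forms. -/
def Sk (F V : Type*) [Field F] [AddCommGroup V] [Module F V] :
    Submodule F (V →ₗ[F] V →ₗ[F] F) where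
  carrier := {M | ∀ v w, M w v = - M v w}
  zero_mem' := fun v w => by simp
  add_mem' := by
    intro M N hM hN v w
    rw [LinearMap.add_apply, LinearMap.add_apply, LinearMap.add_apply, LinearMap.add_apply,
      hM v w, hN v w]
    ring
  smul_mem' := by
    intro c M hM v w
    rw [LinearMap.smul_apply, LinearMap.smul_apply, LinearMap.smul_apply, LinearMap.smul_apply,
      hM v w, smul_neg]

theorem mem_Sk {M : V →ₗ[F] V →ₗ[F] F} : M ∈ Sk F V ↔ ∀ v w, M w v = - M v w := Iff.rfl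

theorem TD.mem_Sk_of_ten (h : TD Q QA QB ten) {M : V →ₗ[F] V →ₗ[F] F}
    (hM : ∀ a b x y, M (ten x y) (ten a b) = - M (ten a b) (ten x y)) : M ∈ Sk F V := by
  have e : M.flip = - M := by
    refine h.ext₂ fun a b x y => ?_
    rw [LinearMap.flip_apply, hM]
    rfl
  intro v w
  have := LinearMap.congr_fun₂ e v w
  simpa using this

theorem rho_mem_Sk (g : V ≃ₗ[F] V) {M : V →ₗ[F] V →ₗ[F] F} (hM : M ∈ Sk F V) :
    rho F V g M ∈ Sk F V := fun v w => hM _ _

theorem ctr_skew (h2 : (2 : F) ≠ 0) {m : B →ₗ[F] B →ₗ[F] F} (hm : ∀ y y', m y' y = - m y y') :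
    ctr QB b1 b2 b3 m = 0 := by
  have e : m b2 b2 = 0 := by
    have := hm b2 b2
    have h3 : 2 * m b2 b2 = 0 := by linear_combination this
    exact (mul_eq_zero.1 h3).resolve_left h2
  rw [ctr, e, hm b1 b3]
  ring

theorem ctr_smul (c : F) (m : B →ₗ[F] B →ₗ[F] F) :
    ctr QB b1 b2 b3 (c • m) = c * ctr QB b1 b2 b3 m := by
  simp only [ctr, LinearMap.smul_apply, smul_eq_mul]
  ring

theorem ctr_polar (h2 : (2 : F) ≠ 0) (hb : HB QB b1 b2 b3) :
    ctr QB b1 b2 b3 (polarBilin QB) = 3 := by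
  simp only [ctr, polarBilin_apply_apply, hb.p13, hb.p31, hb.p22,
    inv_mul_cancel₀ (mul_ne_zero h2 hb.q2)]
  norm_num

theorem TD.ctr_flip_skew (h : TD Q QA QB ten) {M : V →ₗ[F] V →ₗ[F] F} (hM : M ∈ Sk F V) (a x : A) :
    ctr QB b1 b2 b3 (M.compl₁₂ (ten x) (ten a)) =
      - ctr QB b1 b2 b3 (M.compl₁₂ (ten a) (ten x)) := by
  simp only [ctr, LinearMap.compl₁₂_apply]
  rw [hM (ten a b3) (ten x b1), hM (ten a b2) (ten x b2), hM (ten a b1) (ten x b3)]
  ring

theorem TD.p5_mem_Sk (h : TD Q QA QB ten) {M : V →ₗ[F] V →ₗ[F] F} (hM : M ∈ Sk F V) :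
    h.p5 a1 a2 a3 b1 b2 b3 M ∈ Sk F V := by
  refine h.mem_Sk_of_ten fun a b x y => ?_
  rw [h.p5_ten, h.p5_ten, h.ctr_flip_skew hM a x]
  have e : ctr QA a1 a2 a3 (M.compl₁₂ (ten.flip y) (ten.flip b)) =
      - ctr QA a1 a2 a3 (M.compl₁₂ (ten.flip b) (ten.flip y)) :=
    h.flip.ctr_flip_skew hM b y
  rw [e, polar_comm QB y b, polar_comm QA x a]
  ring

/-- The projection fixes `η ⊗ polar QB`, `η` skew. -/
theorem TD.p5_mL (h : TD Q QA QB ten) (h3 : (3 : F) ≠ 0) (ha : HB QA a1 a2 a3)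
    (hb : HB QB b1 b2 b3) {η : A →ₗ[F] A →ₗ[F] F}
    (hη : ∀ a x, η x a = - η a x) :
    h.p5 a1 a2 a3 b1 b2 b3 (h.mko η (polarBilin QB)) = h.mko η (polarBilin QB) := by
  refine h.ext₂ fun a b x y => ?_
  rw [h.p5_ten, h.mko_ten, polarBilin_apply_apply]
  have e1 : (h.mko η (polarBilin QB)).compl₁₂ (ten a) (ten x) = η a x • polarBilin QB := by
    ext y y'
    rw [LinearMap.compl₁₂_apply, h.mko_ten]
    rfl
  have e2 : ctr QA a1 a2 a3 ((h.mko η (polarBilin QB)).compl₁₂ (ten.flip b) (ten.flip y)) = 0 := by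
    refine ctr_skew h.two fun z z' => ?_
    rw [LinearMap.compl₁₂_apply, LinearMap.compl₁₂_apply, LinearMap.flip_apply,
      LinearMap.flip_apply, LinearMap.flip_apply, LinearMap.flip_apply, h.mko_ten, h.mko_ten,
      hη]
    ring
  rw [e1, e2, ctr_smul, ctr_polar h.two hb, mul_zero, add_zero]
  have : (3 : F)⁻¹ * (η a x * 3 * polar QB b y) = ((3 : F)⁻¹ * 3) * (η a x * polar QB b y) := by ring
  rw [this, inv_mul_cancel₀ h3, one_mul]

theorem TD.p5_mL' (h : TD Q QA QB ten) (h3 : (3 : F) ≠ 0) (ha : HB QA a1 a2 a3)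
    (hb : HB QB b1 b2 b3) {ω : B →ₗ[F] B →ₗ[F] F}
    (hω : ∀ b y, ω y b = - ω b y) :
    h.p5 a1 a2 a3 b1 b2 b3 (h.mko (polarBilin QA) ω) = h.mko (polarBilin QA) ω := by
  refine h.ext₂ fun a b x y => ?_
  rw [h.p5_ten, h.mko_ten, polarBilin_apply_apply]
  have e1 : (h.mko (polarBilin QA) ω).compl₁₂ (ten.flip b) (ten.flip y) = ω b y • polarBilin QA := by
    ext z z'
    rw [LinearMap.compl₁₂_apply, LinearMap.flip_apply, LinearMap.flip_apply, h.mko_ten, mul_comm]
    rfl
  have e2 : ctr QB b1 b2 b3 ((h.mko (polarBilin QA) ω).compl₁₂ (ten a) (ten x)) = 0 := by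
    refine ctr_skew h.two fun z z' => ?_
    rw [LinearMap.compl₁₂_apply, LinearMap.compl₁₂_apply, h.mko_ten, h.mko_ten, hω]
    ring
  rw [e1, e2, ctr_smul, ctr_polar h.two ha, zero_mul, zero_add]
  have : (3 : F)⁻¹ * (polar QA a x * (ω b y * 3)) = ((3 : F)⁻¹ * 3) * (polar QA a x * ω b y) := by ring
  rw [this, inv_mul_cancel₀ h3, one_mul]

/-- `p5 M` for skew `M`. -/
theorem TD.p5_eq (h : TD Q QA QB ten) (M : V →ₗ[F] V →ₗ[F] F) :
    h.p5 a1 a2 a3 b1 b2 b3 M =
      (3 : F)⁻¹ • (h.mko (cB ten QB b1 b2 b3 M) (polarBilin QB) +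
        h.mko (polarBilin QA) (cB ten.flip QA a1 a2 a3 M)) := by
  refine h.ext₂ fun a b x y => ?_
  rw [h.p5_ten, LinearMap.smul_apply, LinearMap.smul_apply, LinearMap.add_apply,
    LinearMap.add_apply, h.mko_ten, h.mko_ten, cB_apply, polarBilin_apply_apply,
    polarBilin_apply_apply, smul_eq_mul]
  rfl

theorem TD.cB_skew (h : TD Q QA QB ten) {M : V →ₗ[F] V →ₗ[F] F} (hM : M ∈ Sk F V) (a x : A) :
    cB ten QB b1 b2 b3 M x a = - cB ten QB b1 b2 b3 M a x := h.ctr_flip_skew hM a x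

theorem TD.p5_p5 (h : TD Q QA QB ten) (h3 : (3 : F) ≠ 0) (ha : HB QA a1 a2 a3)
    (hb : HB QB b1 b2 b3) {M : V →ₗ[F] V →ₗ[F] F} (hM : M ∈ Sk F V) :
    h.p5 a1 a2 a3 b1 b2 b3 (h.p5 a1 a2 a3 b1 b2 b3 M) = h.p5 a1 a2 a3 b1 b2 b3 M := by
  conv_lhs => rw [h.p5_eq M, map_smul, map_add, h.p5_mL h3 ha hb (h.cB_skew hM),
    h.p5_mL' h3 ha hb (h.flip.cB_skew hM)]
  exact (h.p5_eq M).symm

end Cfsg.Agent.H922.Ten
end
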